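import Mathlib
import Cfsg.Agent.H24.SmallRank
import Cfsg.Agent.H24.PGroupBasic
import Cfsg.Agent.H20.Generation

/-! A 2-group of rank at least three has a normal four-group. -/

set_option autoImplicit false
open scoped IsMulCommutative

namespace Cfsg.Agent.H52

open Subgroup

variable {P : Type*} [Group P] [Finite P]

/-- A `2`-group with an elementary abelian subgroup of order at least `8` has a normal four-group. -/
theorem exists_normal_klein (hP : IsPGroup 2 P) {E : Subgroup P} (hE : IsMulCommutative E)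
    (hEe : ∀ e ∈ E, e ^ 2 = 1) (hE8 : 8 ≤ Nat.card E) :
    ∃ U : Subgroup P, U.Normal ∧ IsMulCommutative U ∧ (∀ u ∈ U, u ^ 2 = 1) ∧ Nat.card U = 2 ^ 2 := by
  classical
  haveI : Fact (Nat.Prime 2) := ⟨Nat.prime_two⟩
  obtain ⟨A, hAn, hAc, hmax⟩ := H24.exists_maximal_normal_abelian P
  have hCA := H24.centralizer_eq_of_maximal_normal_abelian hP hAc hmax
  have hcomm : ∀ a ∈ A, ∀ b ∈ A, a * b = b * a := fun a ha b hb =>
    congrArg Subtype.val (mul_comm' (⟨a, ha⟩ : A) ⟨b, hb⟩)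
  let V : Subgroup P :=
    { carrier := {a | a ∈ A ∧ a ^ 2 = 1}
      one_mem' := ⟨one_mem A, one_pow 2⟩
      inv_mem' := fun {x} hx => ⟨inv_mem hx.1, by rw [inv_pow, hx.2, inv_one]⟩
      mul_mem' := fun {x y} hx hy => ⟨mul_mem hx.1 hy.1, by
        rw [(show Commute x y from hcomm x hx.1 y hy.1).mul_pow, hx.2, hy.2, one_mul]⟩ }
  haveI : V.Normal := ⟨fun x hx g =>
    ⟨hAn.conj_mem x hx.1 g, by rw [conj_pow, hx.2, mul_one, mul_inv_cancel]⟩⟩
  by_cases hV : 2 < Nat.card V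
  · obtain ⟨U, hUn, -, hUc, hUe, hUcard⟩ :=
      H24.exists_normal_elementary_two_le hP (fun v (hv : v ∈ V) => hv.2) hV
    exact ⟨U, hUn, hUc, hUe, hUcard⟩
  -- now `A` is cyclic
  have hinv : ∀ u ∈ A, ∀ v ∈ A, u ^ 2 = 1 → v ^ 2 = 1 → u ≠ 1 → v ≠ 1 → u = v := by
    intro u hu v hv hu2 hv2 hu1 hv1
    by_contra huv
    refine hV ?_
    have h3 : ({1, u, v} : Set P) ⊆ (V : Set P) := by
      rintro x (rfl | rfl | rfl)
      · exact one_mem V
      · exact ⟨hu, hu2⟩
      · exact ⟨hv, hv2⟩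
    have := Set.ncard_le_ncard h3 (Set.toFinite _)
    rw [Set.ncard_eq_three.mpr ⟨1, u, v, Ne.symm hu1, Ne.symm hv1, huv, rfl⟩,
      ← Nat.card_coe_set_eq] at this
    exact this
  haveI hcyc : IsCyclic A := by
    refine H20.isCyclic_of_prime_kernels fun q hq => ?_
    by_cases hq2 : q = 2
    · subst hq2
      refine le_trans (Nat.card_le_card_of_injective
        (fun x : (powMonoidHom 2 : A →* A).ker => (⟨((x : A) : P), (x : A).2,
          by exact congrArg Subtype.val (MonoidHom.mem_ker.mp x.2)⟩ : V)) ?_) (not_lt.mp hV)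
      intro x y h
      exact Subtype.ext (Subtype.ext (congrArg Subtype.val h :))
    · refine le_trans (le_of_eq (card_eq_one.mpr (eq_bot_iff.mpr fun x hx => mem_bot.mpr ?_))) hq.one_le
      obtain ⟨k, hk⟩ := IsPGroup.iff_orderOf.mp (hP.to_subgroup A) x
      exact orderOf_eq_one_iff.mp (Nat.eq_one_of_dvd_coprimes
        (((Nat.coprime_primes hq Nat.prime_two).mpr hq2).pow_right k)
        (orderOf_dvd_of_pow_eq_one hx) (dvd_of_eq hk))
  obtain ⟨⟨a₀, ha₀⟩, hgen⟩ := hcyc.exists_generator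
  have hpow : ∀ a ∈ A, ∃ i : ℤ, a₀ ^ i = a := fun a ha => by
    obtain ⟨i, hi⟩ := mem_zpowers_iff.mp (hgen ⟨a, ha⟩)
    exact ⟨i, by have := congrArg Subtype.val hi; simpa using this⟩
  have hmemA : ∀ g : P, Commute g a₀ → g ∈ A := fun g hg => by
    rw [← hCA]
    refine mem_centralizer_iff.mpr fun a ha => ?_
    obtain ⟨i, rfl⟩ := hpow a ha
    exact (hg.zpow_right i).eq.symm
  have hconjA : ∀ g, ∀ a ∈ A, g * a * g⁻¹ ∈ A := fun g a ha => hAn.conj_mem a ha g
  -- an involution of `P` centralises or inverts `a₀²`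
  have hsq : ∀ e : P, e ^ 2 = 1 → (e * a₀ * e⁻¹ * a₀⁻¹) ^ 2 = 1 ∨ (e * a₀ * e⁻¹ * a₀) ^ 2 = 1 := by
    intro e he
    have hei : e⁻¹ = e := inv_eq_of_mul_eq_one_right (by rw [← pow_two]; exact he)
    have he2 : e * e = 1 := by rw [← pow_two]; exact he
    set c := e * a₀ * e⁻¹ with hc
    have hcA : c ∈ A := hconjA e a₀ ha₀
    have hec : e * c * e⁻¹ = a₀ := by
      rw [hc, hei]
      simp only [mul_assoc]
      rw [he2, mul_one, ← mul_assoc, he2, one_mul]
    have hbb : e * (c * a₀) * e⁻¹ = c * a₀ := by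
      rw [← conj_mul, hec, ← hc]; exact hcomm a₀ ha₀ c hcA
    have hdd : e * (c * a₀⁻¹) * e⁻¹ = (c * a₀⁻¹)⁻¹ := by
      have h1 : e * a₀⁻¹ * e⁻¹ = c⁻¹ := by rw [hc]; group
      rw [← conj_mul, hec, h1]
      group
    let b : A := ⟨c * a₀, mul_mem hcA ha₀⟩
    let d : A := ⟨c * a₀⁻¹, mul_mem hcA (inv_mem ha₀)⟩
    have hkey : ∀ x y : A, orderOf x ∣ orderOf y → x ∈ zpowers y := by
      intro x y hxy
      haveI := Fintype.ofFinite A
      have hsub : (Finset.univ.filter fun z : A => z ∈ zpowers y) ⊆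
          Finset.univ.filter fun z : A => z ^ orderOf y = 1 := fun z hz => by
        simp only [Finset.mem_filter, Finset.mem_univ, true_and] at hz ⊢
        obtain ⟨i, rfl⟩ := mem_zpowers_iff.mp hz
        rw [← zpow_natCast, ← zpow_mul, mul_comm, zpow_mul, zpow_natCast, pow_orderOf_eq_one, one_zpow]
      have heq := Finset.eq_of_subset_of_card_le hsub (by
        refine le_trans (IsCyclic.card_pow_eq_one_le (orderOf_pos y)) (le_of_eq ?_)
        rw [← Nat.card_zpowers, Nat.card_eq_fintype_card]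
        exact Fintype.card_subtype _)
      have : x ∈ Finset.univ.filter fun z : A => z ∈ zpowers y := by
        rw [heq]
        simp only [Finset.mem_filter, Finset.mem_univ, true_and]
        exact orderOf_dvd_iff_pow_eq_one.mp hxy
      simpa using this
    obtain ⟨k, hk⟩ := IsPGroup.iff_orderOf.mp (hP.to_subgroup A) b
    obtain ⟨l, hl⟩ := IsPGroup.iff_orderOf.mp (hP.to_subgroup A) d
    rcases Nat.le_total k l with h | h
    · right
      obtain ⟨i, hi⟩ := mem_zpowers_iff.mp (hkey b d (hk ▸ hl ▸ pow_dvd_pow 2 h))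
      have hi' : (c * a₀⁻¹) ^ i = c * a₀ := by simpa [b, d] using congrArg Subtype.val hi
      have h2 : e * (c * a₀) * e⁻¹ = (c * a₀)⁻¹ := by
        rw [← hi', ← conj_zpow, hdd, inv_zpow]
      rw [hbb] at h2
      rw [pow_two]
      exact eq_inv_iff_mul_eq_one.mp h2
    · left
      obtain ⟨i, hi⟩ := mem_zpowers_iff.mp (hkey d b (hk ▸ hl ▸ pow_dvd_pow 2 h))
      have hi' : (c * a₀) ^ i = c * a₀⁻¹ := by simpa [b, d] using congrArg Subtype.val hi
      have h2 : e * (c * a₀⁻¹) * e⁻¹ = c * a₀⁻¹ := by rw [← hi', ← conj_zpow, hbb]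
      rw [hdd] at h2
      rw [pow_two]
      exact eq_inv_iff_mul_eq_one.mp h2.symm
  -- the elements of `E` commuting with `a₀²`
  set S : Subgroup P := E ⊓ centralizer {a₀ ^ 2} with hS
  have hd2 : ∀ e ∈ E, (e * a₀ * e⁻¹ * a₀⁻¹) ^ 2 = 1 ↔ Commute e (a₀ ^ 2) := fun e _ => by
    rw [(show Commute (e * a₀ * e⁻¹) a₀⁻¹ from hcomm _ (hconjA e a₀ ha₀) _ (inv_mem ha₀)).mul_pow,
      conj_pow, inv_pow, mul_inv_eq_one]
    exact mul_inv_eq_iff_eq_mul
  have hneg : ∀ e ∈ E, e ∉ S → e * a₀ ^ 2 * e⁻¹ = (a₀ ^ 2)⁻¹ := fun e he heS => by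
    have h := ((hsq e (hEe e he)).resolve_left fun h => heS ⟨he, mem_centralizer_singleton_iff.mpr
      ((hd2 e he).mp h).eq⟩)
    rw [(show Commute (e * a₀ * e⁻¹) a₀ from hcomm _ (hconjA e a₀ ha₀) _ ha₀).mul_pow, conj_pow] at h
    exact eq_inv_of_mul_eq_one_left h
  have hSA : Nat.card S ≤ 4 := by
    by_cases hle : S ≤ A
    · exact le_trans (card_le_of_le (show S ≤ V from fun x hx => ⟨hle hx, hEe x hx.1⟩)) (by omega)
    obtain ⟨e, heS, heA⟩ := SetLike.not_le_iff_exists.mp hle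
    have hidx : ((S ⊓ A).subgroupOf S).index = 2 := by
      refine index_eq_two_iff.mpr ⟨⟨e, heS⟩, fun b => ?_⟩
      simp only [mem_subgroupOf, mem_inf]
      by_cases hb : (b : P) ∈ A
      · refine Or.inr ⟨⟨b.2, hb⟩, fun h => heA ?_⟩
        have := mul_mem (inv_mem hb) h.2
        simpa using this
      · refine Or.inl ⟨⟨mul_mem b.2 heS, ?_⟩, fun h => hb h.2⟩
        show (b : P) * e ∈ A
        have hne : ∀ g ∈ S, g ∉ A → g * a₀ * g⁻¹ * a₀⁻¹ ≠ 1 := fun g _ hg h =>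
          hg (hmemA g (mul_inv_eq_iff_eq_mul.mp (mul_inv_eq_one.mp h)))
        have hdm : ∀ g ∈ S, (g * a₀ * g⁻¹ * a₀⁻¹) ^ 2 = 1 := fun g hg =>
          (hd2 g hg.1).mpr (mem_centralizer_singleton_iff.mp hg.2)
        have heq := mul_right_cancel (hinv _ (mul_mem (hconjA b a₀ ha₀) (inv_mem ha₀)) _
          (mul_mem (hconjA e a₀ ha₀) (inv_mem ha₀)) (hdm b b.2) (hdm e heS) (hne b b.2 hb)
          (hne e heS heA))
        have hbb : (b : P)⁻¹ = b := inv_eq_of_mul_eq_one_right (by rw [← pow_two]; exact hEe b b.2.1)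
        refine hmemA _ (mul_inv_eq_iff_eq_mul.mp ?_)
        rw [mul_inv_rev, show (b : P) * e * a₀ * (e⁻¹ * (b : P)⁻¹) = b * (e * a₀ * e⁻¹) * (b : P)⁻¹ by group,
          ← heq, hbb]
        have h2 : (b : P) * b = 1 := by rw [← pow_two]; exact hEe b b.2.1
        simp only [mul_assoc]
        rw [h2, mul_one, ← mul_assoc, h2, one_mul]
    have h1 := ((S ⊓ A).subgroupOf S).card_mul_index
    rw [hidx, Nat.card_congr (subgroupOfEquivOfLe (inf_le_left : S ⊓ A ≤ S)).toEquiv] at h1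
    have h2 : Nat.card ↥(S ⊓ A) ≤ Nat.card V :=
      card_le_of_le fun x hx => ⟨hx.2, hEe x hx.1.1⟩
    omega
  obtain ⟨f, hfE, hfS⟩ : ∃ f ∈ E, f ∉ S := by
    by_contra! h
    have := card_le_of_le (h : E ≤ S)
    omega
  have ha4 : a₀ ^ 4 ≠ 1 := fun h4 => by
    refine hfS ⟨hfE, mem_centralizer_singleton_iff.mpr (mul_inv_eq_iff_eq_mul.mp ?_)⟩
    rw [hneg f hfE hfS]
    exact inv_eq_of_mul_eq_one_right (by rw [← pow_add]; exact h4)
  obtain ⟨e, heS, heA⟩ : ∃ e ∈ S, e ∉ A := by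
    by_contra! h
    have hSV : Nat.card S ≤ Nat.card V := card_le_of_le fun x hx => ⟨h x hx, hEe x hx.1⟩
    have hidx : (S.subgroupOf E).index = 2 := by
      refine index_eq_two_iff.mpr ⟨⟨f, hfE⟩, fun b => ?_⟩
      simp only [mem_subgroupOf]
      by_cases hb : (b : P) ∈ S
      · refine Or.inr ⟨hb, fun h' => hfS ?_⟩
        have := mul_mem (inv_mem hb) h'
        simpa using this
      · refine Or.inl ⟨?_, hb⟩
        refine ⟨mul_mem b.2 hfE, mem_centralizer_singleton_iff.mpr (mul_inv_eq_iff_eq_mul.mp ?_)⟩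
        show (b : P) * f * a₀ ^ 2 * ((b : P) * f)⁻¹ = a₀ ^ 2
        rw [show (b : P) * f * a₀ ^ 2 * ((b : P) * f)⁻¹ = b * (f * a₀ ^ 2 * f⁻¹) * (b : P)⁻¹ by group,
          hneg f hfE hfS, show (b : P) * (a₀ ^ 2)⁻¹ * (b : P)⁻¹ = ((b : P) * a₀ ^ 2 * (b : P)⁻¹)⁻¹ by group,
          hneg b b.2 hb, inv_inv]
    have h1 := (S.subgroupOf E).card_mul_index
    rw [hidx, Nat.card_congr (subgroupOfEquivOfLe (inf_le_left : S ≤ E)).toEquiv] at h1
    simp only [hS] at h1 hSV
    omega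
  have he2 : e * e = 1 := by rw [← pow_two]; exact hEe e heS.1
  set z := e * a₀ * e⁻¹ * a₀⁻¹ with hz
  have hzA : z ∈ A := mul_mem (hconjA e a₀ ha₀) (inv_mem ha₀)
  have hz2 : z ^ 2 = 1 := (hd2 e heS.1).mpr (mem_centralizer_singleton_iff.mp heS.2)
  have hz1 : z ≠ 1 := fun h => heA (hmemA e (mul_inv_eq_iff_eq_mul.mp (mul_inv_eq_one.mp h)))
  have hzg : ∀ g, g * z * g⁻¹ = z := fun g => hinv _ (hconjA g z hzA) z hzA
    (by rw [conj_pow, hz2, mul_one, mul_inv_cancel]) hz2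
    (fun h => hz1 (conj_eq_one_iff.mp h)) hz1
  have hez : e * a₀ * e⁻¹ = z * a₀ := by rw [hz, inv_mul_cancel_right]
  have hzc : Commute z a₀ := hcomm z hzA a₀ ha₀
  have hzz : Commute z e := (mul_inv_eq_iff_eq_mul.mp (hzg e)).symm
  set U : Subgroup P := closure {e, z} with hU
  have hgens : ∀ u ∈ ({e, z} : Set P), ∀ v ∈ ({e, z} : Set P), u * v = v * u := by
    rintro u (rfl | rfl) v (rfl | rfl)
    · rfl
    · exact hzz.eq.symm
    · exact hzz.eq
    · rfl
  have hUnormal : ∀ g, g * e * g⁻¹ ∈ U := by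
    intro g
    set w := g * e * g⁻¹ with hw
    have hw2 : w ^ 2 = 1 := by rw [hw, conj_pow, pow_two e, he2, mul_one, mul_inv_cancel]
    obtain ⟨i, hi⟩ := hpow _ (hconjA g⁻¹ a₀ ha₀)
    rw [inv_inv] at hi
    have hga : g * a₀ ^ i * g⁻¹ = a₀ := by rw [hi]; group
    have h1 : e * a₀ ^ i * e⁻¹ = z ^ i * a₀ ^ i := by rw [← conj_zpow, hez, hzc.mul_zpow]
    have hwa : w * a₀ * w⁻¹ = z ^ i * a₀ := by
      have : w * (g * a₀ ^ i * g⁻¹) * w⁻¹ = g * (e * a₀ ^ i * e⁻¹) * g⁻¹ := by rw [hw]; group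
      rw [hga, h1, ← conj_mul, hga, ← conj_zpow, hzg] at this
      exact this
    have hzi : z ^ i = z := by
      refine hinv _ (zpow_mem hzA i) z hzA ?_ hz2 (fun h => heA ?_) hz1
      · rw [← zpow_natCast, ← zpow_mul, mul_comm, zpow_mul, zpow_natCast, hz2, one_zpow]
      rw [h, one_mul] at hwa
      have hwA := hmemA w (mul_inv_eq_iff_eq_mul.mp hwa)
      have := hconjA g⁻¹ w hwA
      rwa [hw, show g⁻¹ * (g * e * g⁻¹) * g⁻¹⁻¹ = e by group] at this
    set h := e⁻¹ * w with hh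
    have hhA : h ∈ A := by
      refine hmemA h (mul_inv_eq_iff_eq_mul.mp ?_)
      have h3 : h * a₀ * h⁻¹ = e⁻¹ * (w * a₀ * w⁻¹) * e := by rw [hh]; group
      rw [h3, hwa, hzi, ← hez]
      group
    obtain ⟨j, hj⟩ := hpow h hhA
    have heh : e * h * e⁻¹ = h⁻¹ := by
      rw [hh, mul_inv_rev, inv_inv, show e * (e⁻¹ * w) * e⁻¹ = w * e⁻¹ by group,
        show e⁻¹ = e from inv_eq_of_mul_eq_one_right he2,
        show w⁻¹ = w from inv_eq_of_mul_eq_one_right (by rw [← pow_two]; exact hw2)]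
    have hzh : z ^ j * h * h = 1 := by
      rw [← hj, ← conj_zpow, hez, hzc.mul_zpow] at heh
      rw [← hj, heh, inv_mul_cancel]
    have hzj : z ^ j = 1 := by
      rcases Int.even_or_odd j with ⟨m, hm⟩ | ⟨m, hm⟩
      · rw [hm, ← two_mul, zpow_mul, show z ^ (2 : ℤ) = 1 by exact_mod_cast hz2, one_zpow]
      · exfalso
        refine ha4 (orderOf_dvd_iff_pow_eq_one.mp ?_)
        have h4 : h ^ (4 : ℕ) = 1 := by
          have e1 : h * h = (z ^ j)⁻¹ := eq_inv_of_mul_eq_one_right (by rw [← mul_assoc]; exact hzh)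
          rw [show (4 : ℕ) = 2 * 2 by norm_num, pow_mul, pow_two h, e1, inv_pow, ← zpow_natCast,
            ← zpow_mul, mul_comm, zpow_mul, zpow_natCast, hz2, one_zpow, inv_one]
        have h5 : (orderOf a₀ : ℤ) ∣ j * 4 := orderOf_dvd_iff_zpow_eq_one.mpr (by
          rw [zpow_mul, hj]; exact_mod_cast h4)
        have h6 : Int.gcd (orderOf a₀ : ℤ) j = 1 := by
          obtain ⟨k, hk⟩ := IsPGroup.iff_orderOf.mp hP a₀
          rw [hk, Int.gcd_def, Int.natAbs_natCast, Nat.coprime_iff_gcd_eq_one.symm]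
          refine Nat.Coprime.pow_left k (Nat.coprime_two_left.mpr ?_)
          rw [Int.natAbs_odd, hm]; exact ⟨m, rfl⟩
        exact_mod_cast Int.dvd_of_dvd_mul_right_of_gcd_one h5 h6
    have hh2 : h ^ 2 = 1 := by
      rw [hzj, one_mul] at hzh; rw [pow_two]; exact hzh
    have hwe : w = e * h := by rw [hh, mul_inv_cancel_left]
    rw [hwe]
    refine mul_mem (subset_closure (by simp)) ?_
    rcases eq_or_ne h 1 with h1 | h1
    · rw [h1]; exact one_mem _
    · rw [hinv h hhA z hzA hh2 hz2 h1 hz1]; exact subset_closure (by simp)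
  haveI hUc : IsMulCommutative U := isMulCommutative_closure hgens
  have hUe : ∀ u ∈ U, u ^ 2 = 1 := fun u hu => by
    induction hu using closure_induction with
    | mem x hx => rcases hx with rfl | rfl; exacts [by rw [pow_two]; exact he2, hz2]
    | one => exact one_pow 2
    | mul x y hx hy ihx ihy =>
      rw [(show Commute x y from congrArg Subtype.val (mul_comm' (⟨x, hx⟩ : U) ⟨y, hy⟩)).mul_pow, ihx, ihy,
        one_mul]
    | inv x _ ih => rw [inv_pow, ih, inv_one]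
  haveI hUn : U.Normal := by
    refine ⟨fun u hu g => ?_⟩
    induction hu using closure_induction with
    | mem x hx =>
      rcases hx with rfl | rfl
      · exact hUnormal g
      · rw [hzg]; exact subset_closure (by simp)
    | one => simp
    | mul x y _ _ ihx ihy => rw [← conj_mul]; exact mul_mem ihx ihy
    | inv x _ ih => rw [show g * x⁻¹ * g⁻¹ = (g * x * g⁻¹)⁻¹ by group]; exact inv_mem ih
  have hcard : 2 < Nat.card U := by
    have h3 : ({1, e, z} : Set P) ⊆ (U : Set P) := by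
      rintro x (rfl | rfl | rfl)
      exacts [one_mem _, subset_closure (by simp), subset_closure (by simp)]
    have := Set.ncard_le_ncard h3 (Set.toFinite _)
    rw [Set.ncard_eq_three.mpr ⟨1, e, z, fun h => heA (h ▸ one_mem A), Ne.symm hz1,
      fun h => heA (h ▸ hzA), rfl⟩, ← Nat.card_coe_set_eq] at this
    exact this
  obtain ⟨W, hWn, -, hWc, hWe, hWcard⟩ := H24.exists_normal_elementary_two_le hP hUe hcard
  exact ⟨W, hWn, hWc, hWe, hWcard⟩

end Cfsg.Agent.H52
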