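import Mathlib
import Cfsg.Agent.H52.NormalFour
import Cfsg.Agent.H52.Signalizer
import Cfsg.Prelude.Def_CaseTheorems
import Cfsg.Agent.H24.MaxExponent

/-! Commuting graphs of elementary abelian subgroups of a `p`-group. -/

set_option autoImplicit false
open scoped IsMulCommutative commutatorElement

namespace Cfsg.Agent.H52.Connectivity

open Cfsg Subgroup

variable {P : Type*} [Group P] [Finite P] {p : ℕ}

/-- The adjacency relation. -/
def Adj (p : ℕ) (A B : Subgroup P) : Prop :=
  IsElementaryAbelian p A ∧ p ^ 2 ≤ Nat.card A ∧ IsElementaryAbelian p B ∧ p ^ 2 ≤ Nat.card B ∧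
    ∀ a ∈ A, ∀ b ∈ B, a * b = b * a

omit [Finite P] in
theorem elem_sup {A B : Subgroup P} (hA : IsElementaryAbelian p A) (hB : IsElementaryAbelian p B)
    (hc : ∀ a ∈ A, ∀ b ∈ B, a * b = b * a) : IsElementaryAbelian p (A ⊔ B) := by
  have hA' : A ≤ centralizer (A : Set P) := fun a ha => elem_le_centralizer hA ha |> fun _ =>
    mem_centralizer_iff.mpr fun b hb => elem_comm hA hb ha
  have hB' : B ≤ centralizer (B : Set P) := fun a ha =>
    mem_centralizer_iff.mpr fun b hb => elem_comm hB hb ha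
  have hAB : A ≤ centralizer (B : Set P) := fun a ha =>
    mem_centralizer_iff.mpr fun b hb => (hc a ha b hb).symm
  have hle : A ⊔ B ≤ centralizer ((A ⊔ B : Subgroup P) : Set P) :=
    le_centralizer_iff.mp (sup_le (le_centralizer_iff.mp (sup_le hA' (le_centralizer_iff.mp hAB)))
      (le_centralizer_iff.mp (sup_le hAB hB')))
  refine ⟨le_centralizer_iff_isMulCommutative.mp hle, fun x hx => ?_⟩
  have hx' : x ∈ ((A ⊔ B : Subgroup P) : Set P) := hx
  rw [coe_mul_of_left_le_normalizer_right _ _ (hAB.trans (centralizer_le_normalizer _))] at hx'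
  obtain ⟨a, ha, b, hb, rfl⟩ := hx'
  rw [(show Commute a b from hc a ha b hb).mul_pow, hA.2 a ha, hB.2 b hb, one_mul]

omit [Finite P] in
theorem elem_subgroupOf {E C : Subgroup P} (hE : IsElementaryAbelian p E) :
    IsMulCommutative ↥(E.subgroupOf C) ∧ ∀ a ∈ E.subgroupOf C, a ^ p = 1 :=
  ⟨⟨⟨fun x y => Subtype.ext (Subtype.ext (elem_comm hE x.2 y.2))⟩⟩,
    fun a ha => Subtype.ext (hE.2 a ha)⟩

variable [hp : Fact p.Prime]

/-- An elementary abelian subgroup of order above `p²` centralising `X` shows `C(X)` has rank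
above two. -/
theorem not_rankLE {X E : Subgroup P} (hE : IsElementaryAbelian p E) (hEX : E ≤ centralizer (X : Set P))
    (h3 : p ^ 2 < Nat.card E) : ¬ PRankLE p 2 ↥(centralizer (X : Set P)) := by
  intro h
  obtain ⟨hc, he⟩ := elem_subgroupOf (C := centralizer (X : Set P)) hE
  have := h _ hc he
  rw [Nat.card_congr (subgroupOfEquivOfLe hEX).toEquiv] at this
  omega

omit [Finite P] hp in
theorem exists_elem {C : Subgroup P} {k : ℕ} (h : ¬ PRankLE p k ↥C) :
    ∃ E : Subgroup P, IsElementaryAbelian p E ∧ E ≤ C ∧ p ^ k < Nat.card E := by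
  unfold PRankLE at h
  push Not at h
  obtain ⟨A, hA, hAe, hAc⟩ := h
  refine ⟨A.map C.subtype, ⟨inferInstance, ?_⟩, map_subtype_le _, ?_⟩
  · rintro _ ⟨a, ha, rfl⟩
    rw [← map_pow, hAe a ha, map_one]
  · rw [Nat.card_congr (A.equivMapOfInjective _ C.subtype_injective).toEquiv.symm]
    exact hAc

/-- The centraliser of a normal subgroup of order `p²` meets large subgroups in a large subgroup. -/
theorem card_inf_centralizer (hP : IsPGroup p P) {U E : Subgroup P} [U.Normal]
    (hU : IsElementaryAbelian p U) (hUc : Nat.card U = p ^ 2) (hEe : IsElementaryAbelian p E)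
    (hE : p ^ 2 < Nat.card E) :
    p ^ 2 ≤ Nat.card ↥(E ⊓ centralizer (U : Set P)) := by
  classical
  haveI := hU.1
  obtain ⟨n, hn⟩ := IsPGroup.iff_card.mp (hP.to_subgroup E)
  obtain ⟨m, hm⟩ := IsPGroup.iff_card.mp (hP.to_subgroup (E ⊓ centralizer (U : Set P)))
  rw [hn] at hE
  have hn2 : 2 < n := (Nat.pow_lt_pow_iff_right hp.out.one_lt).mp hE
  rw [hm]
  refine Nat.pow_le_pow_right hp.out.pos ?_
  obtain ⟨K, hKn, hKU, hKc⟩ := H24.exists_normal_le_card hP (N := U) hUc (show 1 ≤ 2 by omega)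
  have hKp : Nat.card K = p := by rw [hKc, pow_one]
  haveI := hKn
  have hKZ : K ≤ center P := by
    have hne := H24.inf_center_ne_bot hP (N := K) (fun h => by
      rw [h, card_bot] at hKp; exact hp.out.ne_one hKp.symm)
    rw [← inf_eq_left]
    refine eq_of_le_of_card_ge inf_le_left ?_
    obtain ⟨j, hj, hjc⟩ := (Nat.dvd_prime_pow hp.out).mp
      ((show Nat.card ↥(K ⊓ center P) ∣ p ^ 1 by rw [pow_one, ← hKp]; exact card_dvd_of_le inf_le_left))
    have hj1 : j = 1 := by
      rcases Nat.eq_zero_or_pos j with h | h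
      · rw [h, pow_zero, card_eq_one] at hjc; exact absurd hjc hne
      · omega
    rw [hjc, hj1, pow_one, hKp]
  obtain ⟨b, hbU, hbK⟩ : ∃ b ∈ U, b ∉ K := by
    by_contra! h
    have := card_le_of_le (h : U ≤ K)
    rw [hUc, hKp] at this
    exact absurd this (not_le.mpr (by nlinarith [hp.out.one_lt]))
  have hcl : ∀ g ∈ E, ⁅g, b⁆ ∈ (K : Set P) := fun g _ =>
    H24.comm_mem_of_index_prime hP hKU (by rw [hUc, hKp, pow_two])
      (le_top.trans (normalizer_eq_top_iff.mpr hKn).ge)
      ((normalizer_eq_top_iff.mpr hKn).ge (mem_top g))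
      ((normalizer_eq_top_iff.mpr ‹U.Normal›).ge (mem_top g)) hbU
  have h1 := H24.relIndex_le_card_of_commutator E b _ hcl
  rw [show Nat.card ↥(K : Set P) = p from hKp] at h1
  have hsup : K ⊔ zpowers b = U := H24.eq_of_between_prime (le_sup_left (a := K))
    (fun h => hbK (h ▸ mem_sup_right (mem_zpowers b))) (sup_le hKU (zpowers_le.mpr hbU))
    (by rw [hUc, hKp, pow_two]) |>.trans rfl
  have hle : E ⊓ centralizer ({b} : Set P) ≤ E ⊓ centralizer (U : Set P) := by
    refine le_inf inf_le_left fun x hx => mem_centralizer_iff.mpr fun u hu => ?_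
    have hUx : U ≤ centralizer ({x} : Set P) := by
      rw [← hsup]
      refine sup_le (fun k hk => mem_centralizer_singleton_iff.mpr (mem_center_iff.mp (hKZ hk) x).symm)
        (zpowers_le.mpr (mem_centralizer_singleton_iff.mpr (mem_centralizer_iff.mp hx.2 b rfl)))
    exact mem_centralizer_singleton_iff.mp (hUx hu)
  have h2 := H24.card_mul_relIndex (inf_le_left : E ⊓ centralizer ({b} : Set P) ≤ E)
  have h3 : p ^ n ≤ p ^ m * p := by
    rw [← hn, ← h2, ← hm]
    exact Nat.mul_le_mul (card_le_of_le hle) h1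
  rw [← pow_succ, Nat.pow_le_pow_iff_right hp.out.one_lt] at h3
  omega

end Cfsg.Agent.H52.Connectivity
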