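import Cfsg.Agent.H52.CocyclicGeneration

/-! Generation of coprime fixed points by the cocyclic commutators, in quotient-cyclic form. -/

set_option autoImplicit false

namespace Cfsg.Agent.H52.Cocyclic

open Subgroup
open scoped commutatorElement

variable {G : Type*} [Group G] [Finite G]

/-- `C_Y(B)` for solvable `Y = [Y, A]` as a supremum over the `B₀ ≤ B` with `B / B₀` cyclic. -/
theorem inf_centralizer_eq_iSup {A B Y : Subgroup G} (hA : IsMulCommutative A) (hB : B ≤ A)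
    (hAY : A ≤ normalizer (Y : Set G)) (hcop : (Nat.card A).Coprime (Nat.card Y))
    (hsolv : Group.IsSolvable Y) (hYA : ⁅Y, A⁆ = Y) :
    Y ⊓ centralizer (B : Set G) =
      ⨆ B₀ : {B₀ : Subgroup G // B₀ ≤ B ∧ ∀ [(B₀.subgroupOf B).Normal], IsCyclic (↥B ⧸ B₀.subgroupOf B)},
        Y ⊓ centralizer (B : Set G) ⊓ ⁅Y ⊓ centralizer ((B₀ : Subgroup G) : Set G), A⁆ := by
  refine le_antisymm ((inf_centralizer_le_gamma A B Y hA hB hAY hcop hsolv hYA).trans ?_)
    (iSup_le fun _ => inf_le_left)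
  refine iSup_le fun ⟨B₀, h₀, b, hb, e⟩ => le_iSup_of_le ⟨B₀, h₀, ?_⟩ le_rfl
  intro _
  refine ⟨⟨QuotientGroup.mk ⟨b, hb⟩, fun x => ?_⟩⟩
  induction x using QuotientGroup.induction_on with
  | H x =>
    have hx : (x : G) ∈ ((B₀ ⊔ zpowers b : Subgroup G) : Set G) := e.ge x.2
    have hn : B₀ ≤ normalizer (zpowers b : Set G) := by
      refine H20.le_normalizer_of_le_centralizer fun y hy => ?_
      refine mem_centralizer_iff.mpr fun z hz => ?_
      obtain ⟨i, rfl⟩ := hz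
      exact congrArg Subtype.val
        (hA.is_comm.comm (⟨b ^ i, zpow_mem (hB hb) i⟩ : A) ⟨y, hB (h₀ hy)⟩)
    rw [coe_mul_of_left_le_normalizer_right _ _ hn] at hx
    obtain ⟨y, hy, _, ⟨i, rfl⟩, hxy⟩ := hx
    refine ⟨i, ?_⟩
    show (QuotientGroup.mk ⟨b, hb⟩ : ↥B ⧸ B₀.subgroupOf B) ^ i = QuotientGroup.mk x
    rw [← QuotientGroup.mk_zpow, QuotientGroup.eq]
    show ((⟨b, hb⟩ : B) ^ i)⁻¹ * x ∈ B₀.subgroupOf B
    rw [mem_subgroupOf]
    have hc : y * b ^ i = b ^ i * y :=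
      congrArg Subtype.val (hA.is_comm.comm (⟨y, hB (h₀ hy)⟩ : A) ⟨b ^ i, zpow_mem (hB hb) i⟩)
    push_cast
    rw [show (x : G) = b ^ i * y from hxy.symm.trans hc, inv_mul_cancel_left]
    exact hy

end Cfsg.Agent.H52.Cocyclic
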