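import Cfsg.Agent.H52.CocyclicGeneration
import Cfsg.Agent.H52.Connectivity
import Cfsg.Agent.H52.Quotient
import Cfsg.Agent.H52.LocalBalance
import Cfsg.Agent.H59.LocalCore
import Cfsg.Agent.H51.PLayer
import Cfsg.Prelude.Def_Balance

/-! The signalizer functor attached to a core-separated pair of four-groups, given that groups of
odd order are solvable. -/

set_option autoImplicit false

namespace Cfsg.Agent.H52.CoreSep

open Cfsg Subgroup
open scoped commutatorElement

variable {G : Type*} [Group G] [Finite G]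

/-- `C_G(b) → C_G(b) / O(C_G(b))`. -/
abbrev cmap (b : G) : ↥(centralizer ({b} : Set G)) →*
    ↥(centralizer ({b} : Set G)) ⧸ pPrimeCore 2 ↥(centralizer ({b} : Set G)) :=
  QuotientGroup.mk' _

/-- The elements of `P` in `C(b)` centralise `L` modulo the core. -/
def Centralizes (b : G) (P : Subgroup G)
    (L : Subgroup (↥(centralizer ({b} : Set G)) ⧸ pPrimeCore 2 ↥(centralizer ({b} : Set G)))) :
    Prop :=
  ∀ x : ↥(centralizer ({b} : Set G)), (x : G) ∈ P → cmap b x ∈ centralizer (SetLike.coe L)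

/-- The odd subgroup `O(C_G(R))` as a subgroup of `G`. -/
abbrev coreC (R : Subgroup G) : Subgroup G :=
  (pPrimeCore 2 ↥(centralizer (R : Set G))).map (centralizer (R : Set G)).subtype

theorem centralizer_zpowers_eq (a : G) :
    centralizer ((zpowers a : Subgroup G) : Set G) = centralizer ({a} : Set G) := by
  refine le_antisymm (centralizer_le (by simp)) fun x hx => mem_centralizer_iff.mpr ?_
  rintro _ ⟨n, rfl⟩
  exact ((show Commute x a from mem_centralizer_singleton_iff.mp hx).zpow_right n).eq.symm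

theorem mem_core_iff {b x : G} (hx : x ∈ centralizer ({b} : Set G)) :
    x ∈ centralizerPPrimeCore 2 b ↔ cmap b ⟨x, hx⟩ = 1 := by
  rw [QuotientGroup.mk'_apply, QuotientGroup.eq_one_iff, centralizerPPrimeCore]
  constructor
  · rintro ⟨y, hy, e⟩
    obtain rfl : y = ⟨x, hx⟩ := Subtype.ext e
    exact hy
  · exact fun h => ⟨_, h, rfl⟩

/-- An odd subgroup normalised by `C(R)` maps into the core of the centraliser of the image. -/
theorem cmap_mem_core {b : G} {R D : Subgroup G} (hR : IsPGroup 2 R)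
    (hRb : R ≤ centralizer ({b} : Set G)) (hD : D ≤ centralizer (R : Set G))
    (hDn : centralizer (R : Set G) ≤ normalizer (D : Set G)) (hDodd : (Nat.card D).Coprime 2)
    {x : ↥(centralizer ({b} : Set G))} (hx : (x : G) ∈ D) :
    cmap b x ∈ coreC ((R.subgroupOf (centralizer ({b} : Set G))).map (cmap b)) := by
  haveI : Fact (Nat.Prime 2) := ⟨Nat.prime_two⟩
  set K := centralizer ({b} : Set G) with hK
  set Rs := R.subgroupOf K with hRs
  have hRsp : IsPGroup 2 Rs := hR.of_injective (subgroupOfEquivOfLe hRb).toMonoidHom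
    (subgroupOfEquivOfLe hRb).injective
  have hcop : (Nat.card Rs).Coprime (Nat.card (cmap b).ker) := by
    obtain ⟨n, hn⟩ := hRsp.exists_card_eq
    rw [QuotientGroup.ker_mk', hn]
    exact ((H51.pPrimeCore_coprime 2 K).symm).pow_left n
  have hmapC := H52.map_centralizer_eq_of_coprime (cmap b) (QuotientGroup.mk'_surjective _) Rs hcop
    (H20.isSolvable_of_isPGroup hRsp)
  refine H59.le_core_of_normalized (D := (D.subgroupOf K).map (cmap b)) ?_ ?_ ?_
    (mem_map_of_mem _ hx)
  · rw [← hmapC]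
    refine map_mono fun y hy => mem_centralizer_iff.mpr fun r hr => Subtype.ext ?_
    exact mem_centralizer_iff.mp (hD hy) r hr
  · rw [← hmapC]
    refine (map_mono ?_).trans (le_normalizer_map _)
    intro y hy
    refine mem_normalizer_iff.mpr fun d => ?_
    have hy' : (y : G) ∈ centralizer (R : Set G) := mem_centralizer_iff.mpr fun r hr =>
      congrArg Subtype.val (mem_centralizer_iff.mp hy ⟨r, hRb hr⟩ hr)
    exact (hDn hy') (d : G)
  · refine Nat.Coprime.coprime_dvd_left (card_map_dvd _ _) ?_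
    refine Nat.Coprime.coprime_dvd_left ?_ hDodd
    rw [← card_map_of_injective K.subtype_injective, subgroupOf_map_subtype]
    exact card_dvd_of_le inf_le_left

theorem centralizer_le_normalizer_coreC (R : Subgroup G) :
    centralizer (R : Set G) ≤ normalizer (coreC R : Set G) :=
  H59.le_normalizer_core _

theorem coreC_coprime (R : Subgroup G) : (Nat.card ↥(coreC R)).Coprime 2 :=
  haveI : Fact (Nat.Prime 2) := ⟨Nat.prime_two⟩
  H59.core_coprime _

theorem isPGroup_zpowers {a : G} (ha : a ^ 2 = 1) : IsPGroup 2 (zpowers a) := by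
  rintro ⟨x, n, rfl⟩
  refine ⟨1, Subtype.ext ?_⟩
  show (a ^ n) ^ (2 ^ 1) = 1
  rw [pow_one, ← zpow_natCast, ← zpow_mul, mul_comm, zpow_mul, zpow_natCast, ha, one_zpow]

variable {A : Subgroup G} (hA : IsElementaryAbelian 2 A)
include hA

theorem mem_centralizer_of_mem {a b : G} (ha : a ∈ A) (hb : b ∈ A) :
    a ∈ centralizer ({b} : Set G) :=
  mem_centralizer_singleton_iff.mpr (H52.elem_comm hA ha hb)

theorem le_normalizer_core' {a : G} (ha : a ∈ A) :
    A ≤ normalizer (centralizerPPrimeCore 2 a : Set G) :=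
  haveI : Fact (Nat.Prime 2) := ⟨Nat.prime_two⟩
  fun _ hx => H52.centralizer_le_normalizer_core (p := 2) a (mem_centralizer_of_mem hA hx ha)

omit hA in
theorem core_le_centralizer (a : G) : centralizerPPrimeCore 2 a ≤ centralizer ({a} : Set G) :=
  map_subtype_le _

omit hA in
theorem core_coprime (a : G) : (Nat.card ↥(centralizerPPrimeCore 2 a)).Coprime 2 :=
  haveI : Fact (Nat.Prime 2) := ⟨Nat.prime_two⟩
  H52.centralizerPPrimeCore_coprime a

/-- The core of `C(ā)` in `C(b) / O(C(b))`. -/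
theorem cmap_core_mem {a b : G} (ha : a ∈ A) (hb : b ∈ A)
    {x : ↥(centralizer ({b} : Set G))} (hx : (x : G) ∈ centralizerPPrimeCore 2 a) :
    cmap b x ∈ coreC (zpowers (cmap b ⟨a, mem_centralizer_of_mem hA ha hb⟩)) := by
  have h := cmap_mem_core (b := b) (R := zpowers a) (D := centralizerPPrimeCore 2 a)
    (isPGroup_zpowers (hA.2 a ha)) (zpowers_le.mpr (mem_centralizer_of_mem hA ha hb))
    (by rw [centralizer_zpowers_eq]; exact core_le_centralizer a)
    (by rw [centralizer_zpowers_eq]; exact H52.centralizer_le_normalizer_core (p := 2) a)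
    (core_coprime a) hx
  have e : ((zpowers a).subgroupOf (centralizer ({b} : Set G))).map (cmap b) =
      zpowers (cmap b ⟨a, mem_centralizer_of_mem hA ha hb⟩) := by
    rw [← MonoidHom.map_zpowers]
    congr 1
    apply map_injective (centralizer ({b} : Set G)).subtype_injective
    rw [map_subgroupOf_eq_of_le (zpowers_le.mpr (mem_centralizer_of_mem hA ha hb)),
      MonoidHom.map_zpowers]
    rfl
  rwa [e] at h

/-- `O_a ∩ C(b)` normalises the components modulo the core. -/
theorem cmap_mem_normalizer {a b : G} (ha : a ∈ A) (hb : b ∈ A)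
    {x : ↥(centralizer ({b} : Set G))} (hx : (x : G) ∈ centralizerPPrimeCore 2 a)
    {L : Subgroup (↥(centralizer ({b} : Set G)) ⧸ pPrimeCore 2 ↥(centralizer ({b} : Set G)))}
    (hL : IsComponent L) : cmap b x ∈ normalizer (SetLike.coe L) :=
  haveI : Fact (Nat.Prime 2) := ⟨Nat.prime_two⟩
  H59.core_normalizes_components (H51.pPrimeCore_quotient_self 2)
    (isPGroup_zpowers (by rw [← map_pow]; convert map_one (cmap b); exact Subtype.ext (hA.2 a ha)))
    hL (cmap_core_mem hA ha hb hx)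

/-- An element of `O_a ∩ C(b)` centralising all components modulo the core lies in `O_b`. -/
theorem mem_core_of_centralizes {a b : G} (ha : a ∈ A) (hb : b ∈ A)
    {x : ↥(centralizer ({b} : Set G))} (hx : (x : G) ∈ centralizerPPrimeCore 2 a)
    (hL : ∀ L : Subgroup (↥(centralizer ({b} : Set G)) ⧸ pPrimeCore 2 ↥(centralizer ({b} : Set G))),
      IsComponent L → cmap b x ∈ centralizer (SetLike.coe L)) :
    (x : G) ∈ centralizerPPrimeCore 2 b := by
  haveI : Fact (Nat.Prime 2) := ⟨Nat.prime_two⟩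
  have hm := cmap_core_mem hA ha hb hx
  have hp : IsPGroup 2 (zpowers (cmap b ⟨a, mem_centralizer_of_mem hA ha hb⟩)) :=
    isPGroup_zpowers (by rw [← map_pow]; convert map_one (cmap b); exact Subtype.ext (hA.2 a ha))
  have h2 := H59.mem_pCore_of_centralizes (H51.pPrimeCore_quotient_self 2) hL
    (H59.core_centralizes_pCore hp hm)
  rw [mem_core_iff x.2, ← mem_bot, ← H19.inf_eq_bot_of_isPGroup_coprime
    (H51.pCore_isPGroup 2 _) (H59.core_coprime (p := 2) _)]
  exact ⟨h2, hm⟩

variable {P Q : Subgroup G} (hPA : P ≤ A) (hQA : Q ≤ A) (hP4 : Nat.card P = 4)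
  (hdec : ∀ a ∈ A, ∃ u ∈ P, ∃ v ∈ Q, u * v = a)
  (hsep : ∀ b ∈ A, b ≠ 1 →
    ∀ L : Subgroup (↥(centralizer ({b} : Set G)) ⧸ pPrimeCore 2 ↥(centralizer ({b} : Set G))),
      IsComponent L → Centralizes b P L ∨ Centralizes b Q L)
include hPA hQA hP4 hdec hsep

/-- `[O_a ∩ C(α), P] ≤ O_α` for `α ∈ P#`. -/
theorem commutator_mem_core {a α : G} (ha : a ∈ A) (hα : α ∈ P) (hα1 : α ≠ 1) {w β : G}
    (hw : w ∈ centralizerPPrimeCore 2 a) (hwα : w ∈ centralizer ({α} : Set G)) (hβ : β ∈ P) :
    ⁅w, β⁆ ∈ centralizerPPrimeCore 2 α := by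
  haveI : Fact (Nat.Prime 2) := ⟨Nat.prime_two⟩
  have hβK : β ∈ centralizer ({α} : Set G) := mem_centralizer_of_mem hA (hPA hβ) (hPA hα)
  have hx : ⁅w, β⁆ ∈ centralizerPPrimeCore 2 a := by
    rw [commutatorElement_def, show w * β * w⁻¹ * β⁻¹ = w * (β * w⁻¹ * β⁻¹) by group]
    exact mul_mem hw (H20.conj_mem_of_le_normalizer (le_normalizer_core' hA ha) (hPA hβ) (inv_mem hw))
  let W : ↥(centralizer ({α} : Set G)) := ⟨w, hwα⟩
  let Bt : ↥(centralizer ({α} : Set G)) := ⟨β, hβK⟩
  refine mem_core_of_centralizes hA ha (hPA hα) (x := ⁅W, Bt⁆) hx fun L hL => ?_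
  set aK : ↥(centralizer ({α} : Set G)) := ⟨a, mem_centralizer_of_mem hA ha (hPA hα)⟩ with haK
  have ha2 : (cmap α aK) ^ 2 = 1 := by
    rw [← map_pow]; convert map_one (cmap α); exact Subtype.ext (hA.2 a ha)
  by_cases hmove : cmap α aK ∈ normalizer (SetLike.coe L)
  swap
  · exact H59.core_centralizes_of_moved (H51.pPrimeCore_quotient_self 2) ha2 hL hmove
      (cmap_core_mem hA ha (hPA hα) hx)
  have hWN : cmap α W ∈ normalizer (SetLike.coe L) := cmap_mem_normalizer hA ha (hPA hα) hw hL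
  set N := normalizer (SetLike.coe L) with hN
  set ρ := L.normalizerMonoidHom with hρ
  have hker : ρ.ker = (centralizer (SetLike.coe L)).subgroupOf N := L.normalizerMonoidHom_ker
  rcases hsep α (hPA hα) hα1 L hL with h | h
  · have hc := h Bt hβ
    rw [map_commutatorElement, commutatorElement_def]
    exact mul_mem ((H20.le_normalizer_centralizer (le_refl N) hWN _).mp hc) (inv_mem hc)
  obtain ⟨u, hu, v, hv, huv⟩ := hdec a ha
  have hvK : v ∈ centralizer ({α} : Set G) := mem_centralizer_of_mem hA (hQA hv) (hPA hα)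
  have hvc := h ⟨v, hvK⟩ hv
  have huK : u ∈ centralizer ({α} : Set G) := mem_centralizer_of_mem hA (hPA hu) (hPA hα)
  have heq : cmap α aK = cmap α ⟨u, huK⟩ * cmap α ⟨v, hvK⟩ := by
    rw [← map_mul]
    exact congrArg _ (Subtype.ext huv.symm)
  have hαc : ∀ y, cmap α ⟨α, mem_centralizer_singleton_iff.mpr rfl⟩ * y =
      y * cmap α ⟨α, mem_centralizer_singleton_iff.mpr rfl⟩ := by
    intro y
    obtain ⟨z, rfl⟩ := QuotientGroup.mk'_surjective _ y
    rw [← map_mul, ← map_mul]
    exact congrArg _ (Subtype.ext (mem_centralizer_singleton_iff.mp z.2).symm)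
  by_cases huα : u ∈ zpowers α
  · obtain ⟨n, hn⟩ := huα
    refine H59.core_centralizes_of_centralized (H51.pPrimeCore_quotient_self 2) hL ?_
      (cmap_core_mem hA ha (hPA hα) hx)
    intro l hl
    rw [centralizer_zpowers_eq, mem_centralizer_singleton_iff]
    refine Eq.symm ?_
    show Commute (cmap α aK) l
    rw [heq]
    refine Commute.mul_left ?_ (mem_centralizer_iff.mp hvc l hl).symm
    have : (⟨u, huK⟩ : ↥(centralizer ({α} : Set G))) =
        ⟨α, mem_centralizer_singleton_iff.mpr rfl⟩ ^ n := Subtype.ext (by simpa using hn.symm)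
    rw [this, map_zpow]
    exact (show Commute _ l from hαc l).zpow_left n
  have hPgen : P ≤ zpowers α ⊔ zpowers u := by
    have hle : zpowers α ⊔ zpowers u ≤ P := sup_le (zpowers_le.mpr hα) (zpowers_le.mpr hu)
    refine (eq_of_le_of_card_ge hle ?_).ge
    have hc2 : Nat.card (zpowers α) = 2 := by
      rw [Nat.card_zpowers]
      exact orderOf_eq_prime (hA.2 α (hPA hα)) hα1
    have hlt : Nat.card (zpowers α) < Nat.card ↥(zpowers α ⊔ zpowers u) := by
      by_contra hcon
      push Not at hcon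
      exact huα ((eq_of_le_of_card_ge le_sup_left hcon).ge (mem_sup_right (mem_zpowers u)))
    have hdvd : Nat.card ↥(zpowers α ⊔ zpowers u) ∣ 4 := hP4 ▸ card_dvd_of_le hle
    have hcases := Nat.le_of_dvd (by norm_num) hdvd
    rw [hc2] at hlt
    rcases (show Nat.card ↥(zpowers α ⊔ zpowers u) = 3 ∨ Nat.card ↥(zpowers α ⊔ zpowers u) = 4 by
      omega) with h3 | h4
    · rw [h3] at hdvd; omega
    · omega
  set S : Subgroup G :=
    ((((centralizer ({ρ ⟨cmap α W, hWN⟩} : Set (MulAut L))).comap ρ).map N.subtype).comap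
      (cmap α)).map (centralizer ({α} : Set G)).subtype with hS
  have hmemS : ∀ (x : ↥(centralizer ({α} : Set G))) (hx' : cmap α x ∈ N),
      Commute (ρ ⟨cmap α x, hx'⟩) (ρ ⟨cmap α W, hWN⟩) → (x : G) ∈ S := fun x hx' hc =>
    mem_map_of_mem _ ⟨⟨_, hx'⟩, mem_centralizer_singleton_iff.mpr hc.eq, rfl⟩
  have hαN : cmap α ⟨α, mem_centralizer_singleton_iff.mpr rfl⟩ ∈ N :=
    mem_normalizer_iff.mpr fun y => by rw [hαc, mul_inv_cancel_right]
  have hαS : α ∈ S := by
    refine hmemS ⟨α, _⟩ hαN ?_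
    show ρ _ * ρ _ = ρ _ * ρ _
    rw [← map_mul, ← map_mul]
    exact congrArg ρ (Subtype.ext (hαc _))
  have hvN : cmap α ⟨v, hvK⟩ ∈ N := centralizer_le_normalizer _ hvc
  have huN : cmap α ⟨u, huK⟩ ∈ N := by
    have : cmap α ⟨u, huK⟩ = cmap α aK * (cmap α ⟨v, hvK⟩)⁻¹ := by rw [heq, mul_inv_cancel_right]
    rw [this]
    exact mul_mem hmove (inv_mem hvN)
  have huS : u ∈ S := by
    refine hmemS ⟨u, huK⟩ huN ?_
    have hρv : ρ ⟨cmap α ⟨v, hvK⟩, hvN⟩ = 1 := by
      rw [← MonoidHom.mem_ker, hker]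
      exact hvc
    have e : ρ ⟨cmap α aK, hmove⟩ = ρ ⟨cmap α ⟨u, huK⟩, huN⟩ := by
      rw [show (⟨cmap α aK, hmove⟩ : N) = ⟨_, huN⟩ * ⟨_, hvN⟩ from Subtype.ext heq, map_mul, hρv,
        mul_one]
    rw [← e]
    show ρ _ * ρ _ = ρ _ * ρ _
    rw [← map_mul, ← map_mul]
    refine congrArg ρ (Subtype.ext ?_)
    show cmap α aK * cmap α W = cmap α W * cmap α aK
    rw [← map_mul, ← map_mul]
    exact congrArg _ (Subtype.ext
      (mem_centralizer_singleton_iff.mp (core_le_centralizer a hw)).symm)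
  have hβS : β ∈ S := (hPgen.trans (sup_le (zpowers_le.mpr hαS) (zpowers_le.mpr huS))) hβ
  obtain ⟨y, hy, hye⟩ := hβS
  obtain rfl : y = Bt := Subtype.ext hye
  obtain ⟨⟨z, hz⟩, hzc, hze⟩ := hy
  change z = cmap α Bt at hze
  subst hze
  have hfin : ρ ⁅(⟨cmap α W, hWN⟩ : N), ⟨cmap α Bt, hz⟩⁆ = 1 := by
    rw [map_commutatorElement, commutatorElement_eq_one_iff_mul_comm]
    exact (mem_centralizer_singleton_iff.mp hzc).symm
  rw [← MonoidHom.mem_ker, hker] at hfin
  rw [map_commutatorElement]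
  exact hfin

variable (hodd : ∀ Y : Subgroup G, Odd (Nat.card Y) → Group.IsSolvable Y)
include hodd

/-- `([O_a, P] (O_a ∩ O(C(P)))) ∩ C(P) ≤ O(C(P))`. -/
theorem fixed_le_coreC {a : G} (ha : a ∈ A) :
    (⁅centralizerPPrimeCore 2 a, P⁆ ⊔ (centralizerPPrimeCore 2 a ⊓ coreC P)) ⊓
      centralizer (P : Set G) ≤ coreC P := by
  haveI : Fact (Nat.Prime 2) := ⟨Nat.prime_two⟩
  set O := centralizerPPrimeCore 2 a with hO
  have hPel : IsElementaryAbelian 2 P := H52.elem_mono hA hPA
  haveI := hPel.1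
  have hPO : P ≤ normalizer (O : Set G) := hPA.trans (le_normalizer_core' hA ha)
  have hYO : ⁅O, P⁆ ≤ O := H20.commutator_le_of_le_normalizer hPO
  have hcopO : (Nat.card P).Coprime (Nat.card O) := by
    rw [hP4]
    exact ((core_coprime a).symm.pow_left 2)
  set Y := ⁅O, P⁆ with hY
  have hYP : ⁅Y, P⁆ = Y :=
    H20.commutator_commutator_eq hPO hcopO (Or.inl (H20.isSolvable_of_isMulCommutative P))
  have hgam := Cocyclic.inf_centralizer_le_gamma P P Y inferInstance le_rfl
    (normalizer_commutator_ge_right O P) (hcopO.coprime_dvd_right (card_dvd_of_le hYO))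
    (hodd Y (Nat.coprime_two_right.mp ((core_coprime a).coprime_dvd_left (card_dvd_of_le hYO)))) hYP
  have hgle : Cocyclic.gamma P P Y ≤ coreC P := by
    refine iSup_le fun ⟨B₀, h₀, b, hb, e⟩ => ?_
    have hne : B₀ ≠ ⊥ := by
      rintro rfl
      rw [bot_sup_eq] at e
      have h4 : Nat.card (zpowers b) = 4 := by rw [e, hP4]
      rw [Nat.card_zpowers] at h4
      have := orderOf_dvd_of_pow_eq_one (hPel.2 b hb)
      rw [h4] at this
      omega
    obtain ⟨α, hα, hα1⟩ : ∃ α ∈ B₀, α ≠ 1 := by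
      by_contra! h
      exact hne ((eq_bot_iff_forall B₀).mpr h)
    intro x hx
    obtain ⟨⟨-, hxP⟩, hxc⟩ := hx
    have hxα : x ∈ centralizerPPrimeCore 2 α := by
      refine (commutator_le.mpr fun w hw β hβ => ?_ : _ ≤ centralizerPPrimeCore 2 α) hxc
      exact commutator_mem_core hA hPA hQA hP4 hdec hsep ha (h₀ hα) hα1 (hYO hw.1)
        (mem_centralizer_singleton_iff.mpr (mem_centralizer_iff.mp hw.2 α hα).symm) hβ
    refine H59.le_core_of_normalized (D := centralizerPPrimeCore 2 α ⊓ centralizer (P : Set G))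
      inf_le_right (H20.le_normalizer_inf ?_ le_normalizer)
      ((core_coprime α).coprime_dvd_left (card_dvd_of_le inf_le_left)) ⟨hxα, hxP⟩
    refine le_trans ?_ (H52.centralizer_le_normalizer_core (p := 2) α)
    exact centralizer_le (Set.singleton_subset_iff.mpr (h₀ hα))
  rintro x ⟨hx, hxP⟩
  have hx' : x ∈ ((Y ⊔ (O ⊓ coreC P) : Subgroup G) : Set G) := hx
  rw [coe_mul_of_right_le_normalizer_left _ _
    (inf_le_left.trans (normalizer_commutator_ge_left O P))] at hx'
  obtain ⟨y, hy, m, hm, rfl⟩ := hx'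
  refine mul_mem (hgle (hgam ⟨hy, ?_⟩)) hm.2
  have hmP : m ∈ centralizer (P : Set G) := map_subtype_le _ (mem_inf.mp hm).2
  have := mul_mem (show y * m ∈ centralizer (P : Set G) from hxP) (inv_mem hmP)
  rwa [mul_inv_cancel_right] at this

/-- An element of `([O_a, P] (O_a ∩ O(C(P)))) ∩ C(b)` centralises the components of `C(b)` mod the
core which `P` centralises. -/
theorem cmap_mem_centralizer {a b : G} (ha : a ∈ A) (hb : b ∈ A) {D : Subgroup G}
    (hD : D ≤ centralizer ({b} : Set G))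
    (hDT : D ≤ ⁅centralizerPPrimeCore 2 a, P⁆ ⊔ (centralizerPPrimeCore 2 a ⊓ coreC P))
    (hAD : A ≤ normalizer (D : Set G))
    {L : Subgroup (↥(centralizer ({b} : Set G)) ⧸ pPrimeCore 2 ↥(centralizer ({b} : Set G)))}
    (hL : IsComponent L) (hPL : Centralizes b P L) :
    D ≤ ((centralizer (SetLike.coe L)).comap (cmap b)).map (centralizer ({b} : Set G)).subtype := by
  haveI : Fact (Nat.Prime 2) := ⟨Nat.prime_two⟩
  have hPel : IsElementaryAbelian 2 P := H52.elem_mono hA hPA
  haveI := hPel.1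
  set O := centralizerPPrimeCore 2 a with hO
  have hTO : ⁅O, P⁆ ⊔ (O ⊓ coreC P) ≤ O :=
    sup_le (H20.commutator_le_of_le_normalizer (hPA.trans (le_normalizer_core' hA ha))) inf_le_left
  have hcop : (Nat.card P).Coprime (Nat.card D) := by
    rw [hP4]
    exact (((core_coprime a).coprime_dvd_left (card_dvd_of_le (hDT.trans hTO))).symm.pow_left 2)
  refine (H20.commutator_sup_centralizer (hPA.trans hAD) hcop
    (Or.inl (H20.isSolvable_of_isMulCommutative P))).ge.trans (sup_le ?_ ?_)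
  · rw [commutator_le]
    intro d hd β hβ
    have hβK : β ∈ centralizer ({b} : Set G) := mem_centralizer_of_mem hA (hPA hβ) hb
    refine ⟨⁅(⟨d, hD hd⟩ : ↥(centralizer ({b} : Set G))), ⟨β, hβK⟩⁆, ?_, rfl⟩
    show cmap b _ ∈ centralizer (SetLike.coe L)
    rw [map_commutatorElement, commutatorElement_def]
    exact mul_mem ((H20.le_normalizer_centralizer (le_refl _)
      (cmap_mem_normalizer hA ha hb (x := ⟨d, hD hd⟩) (hTO (hDT hd)) hL) _).mp (hPL ⟨β, hβK⟩ hβ))
      (inv_mem (hPL ⟨β, hβK⟩ hβ))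
  · rintro x ⟨hx, hxP⟩
    refine ⟨⟨x, hD hx⟩, ?_, rfl⟩
    have hxc : x ∈ coreC P := fixed_le_coreC hA hPA hQA hP4 hdec hsep hodd ha ⟨hDT hx, hxP⟩
    have hPb : P ≤ centralizer ({b} : Set G) := fun y hy => mem_centralizer_of_mem hA (hPA hy) hb
    refine H59.core_centralizes_of_centralized (H51.pPrimeCore_quotient_self 2) hL ?_
      (cmap_mem_core (b := b) (R := P) (D := coreC P) (H52.elem_isPGroup hPel) hPb (map_subtype_le _)
        (centralizer_le_normalizer_coreC P) (coreC_coprime P) (x := ⟨x, hD hx⟩) hxc)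
    intro l hl
    rw [mem_centralizer_iff]
    rintro _ ⟨y, hy, rfl⟩
    exact (mem_centralizer_iff.mp (hPL y hy) l hl).symm

end Cfsg.Agent.H52.CoreSep
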