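import Cfsg.Agent.H52.CoreSeparated

/-! The core-separated signalizer functor. -/

set_option autoImplicit false

namespace Cfsg.Agent.H52.CoreSep

open Cfsg Subgroup
open scoped commutatorElement

variable {G : Type*} [Group G] [Finite G]

/-- One factor of the core-separated functor. -/
abbrev factor (P : Subgroup G) (a : G) : Subgroup G :=
  ⁅centralizerPPrimeCore 2 a, P⁆ ⊔ (centralizerPPrimeCore 2 a ⊓ coreC P)

/-- Core separation says each component of `C(b)` modulo the core is centralised by `A₁` or `A₂`. -/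
theorem centralizes_or {A₁ A₂ : Subgroup G} (hcs : IsCoreSeparated A₁ A₂) {b : G}
    (hb : b ∈ A₁ ⊔ A₂) (hb1 : b ≠ 1)
    {L : Subgroup (↥(centralizer ({b} : Set G)) ⧸ pPrimeCore 2 ↥(centralizer ({b} : Set G)))}
    (hL : IsComponent L) : Centralizes b A₁ L ∨ Centralizes b A₂ L := by
  obtain ⟨E, hE, rfl⟩ := H51.exists_pComponent_map_eq 2 hL
  have key : ∀ P : Subgroup G,
      ⁅E.map (centralizer ({b} : Set G)).subtype, P⁆ ≤ centralizerPPrimeCore 2 b →
      Centralizes b P (E.map (cmap b)) := by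
    intro P h x hx
    rw [mem_centralizer_iff]
    rintro _ ⟨e, he, rfl⟩
    have h1 : (⁅(e : G), (x : G)⁆) ∈ centralizerPPrimeCore 2 b :=
      h (commutator_mem_commutator (mem_map_of_mem _ he) hx)
    have h2 := (mem_core_iff (b := b) (x := ⁅(e : G), (x : G)⁆) (⁅e, x⁆).2).mp h1
    rw [← commutatorElement_eq_one_iff_mul_comm, ← map_commutatorElement]
    exact h2
  exact (hcs.2.2.2.2.2.2.2 b hb hb1 E hE).imp (key A₁) (key A₂)

variable {A P Q : Subgroup G}

/-- Fixed points of `b` on the functor lie in `O_b` and in the factor at `b`. -/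
theorem factor_balance (hA : IsElementaryAbelian 2 A) (hPA : P ≤ A) (hQA : Q ≤ A)
    (hP4 : Nat.card P = 4) (hdec : ∀ a ∈ A, ∃ u ∈ P, ∃ v ∈ Q, u * v = a)
    (hsep : ∀ b ∈ A, b ≠ 1 →
      ∀ L : Subgroup (↥(centralizer ({b} : Set G)) ⧸ pPrimeCore 2 ↥(centralizer ({b} : Set G))),
        IsComponent L → Centralizes b P L ∨ Centralizes b Q L)
    (hodd : ∀ Y : Subgroup G, Odd (Nat.card Y) → Group.IsSolvable Y)
    {a b : G} (ha : a ∈ A) {D : Subgroup G} (hDb : D ≤ centralizerPPrimeCore 2 b)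
    (hDT : D ≤ factor P a) (hAD : A ≤ normalizer (D : Set G)) : D ≤ factor P b := by
  haveI : Fact (Nat.Prime 2) := ⟨Nat.prime_two⟩
  have hPel : IsElementaryAbelian 2 P := H52.elem_mono hA hPA
  haveI := hPel.1
  have hcop : (Nat.card P).Coprime (Nat.card D) := by
    rw [hP4]
    exact (((core_coprime b).coprime_dvd_left (card_dvd_of_le hDb)).symm.pow_left 2)
  refine (H20.commutator_sup_centralizer (hPA.trans hAD) hcop
    (Or.inl (H20.isSolvable_of_isMulCommutative P))).ge.trans (sup_le ?_ ?_)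
  · exact le_sup_of_le_left (commutator_mono hDb le_rfl)
  · exact le_sup_of_le_right (le_inf (inf_le_left.trans hDb)
      ((inf_le_inf_right _ hDT).trans (fixed_le_coreC hA hPA hQA hP4 hdec hsep hodd ha)))

/-- The functor is a signalizer functor, if groups of odd order are solvable. -/
theorem isSignalizerFunctor {A₁ A₂ : Subgroup G} (hcs : IsCoreSeparated A₁ A₂)
    (hodd : ∀ Y : Subgroup G, Odd (Nat.card Y) → Group.IsSolvable Y) :
    IsSignalizerFunctor 2 (A₁ ⊔ A₂) (fun a => factor A₁ a ⊓ factor A₂ a) := by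
  haveI : Fact (Nat.Prime 2) := ⟨Nat.prime_two⟩
  obtain ⟨h₁, h₂, h14, h24, -, -, hcom, -⟩ := id hcs
  set A := A₁ ⊔ A₂ with hAdef
  have hA : IsElementaryAbelian 2 A := H52.Connectivity.elem_sup h₁ h₂ hcom
  have h1A : A₁ ≤ A := le_sup_left
  have h2A : A₂ ≤ A := le_sup_right
  have hn : A₁ ≤ normalizer (A₂ : Set G) := H20.le_normalizer_of_le_centralizer fun x hx =>
    mem_centralizer_iff.mpr fun y hy => (hcom x hx y hy).symm
  have hdec : ∀ a ∈ A, ∃ u ∈ A₁, ∃ v ∈ A₂, u * v = a := by
    intro a ha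
    have ha' : a ∈ ((A₁ ⊔ A₂ : Subgroup G) : Set G) := ha
    rw [coe_mul_of_left_le_normalizer_right _ _ hn] at ha'
    exact ha'
  have hdec' : ∀ a ∈ A, ∃ u ∈ A₂, ∃ v ∈ A₁, u * v = a := by
    intro a ha
    obtain ⟨u, hu, v, hv, e⟩ := hdec a ha
    exact ⟨v, hv, u, hu, (hcom u hu v hv).symm.trans e⟩
  have hsep := fun b (hb : b ∈ A) (hb1 : b ≠ 1)
    (L : Subgroup (↥(centralizer ({b} : Set G)) ⧸ pPrimeCore 2 ↥(centralizer ({b} : Set G))))
    (hL : IsComponent L) => centralizes_or hcs hb hb1 hL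
  have hsep' := fun b (hb : b ∈ A) (hb1 : b ≠ 1)
    (L : Subgroup (↥(centralizer ({b} : Set G)) ⧸ pPrimeCore 2 ↥(centralizer ({b} : Set G))))
    (hL : IsComponent L) => (centralizes_or hcs hb hb1 hL).symm
  have hle : ∀ a ∈ A, ∀ P : Subgroup G, P ≤ A → factor P a ≤ centralizerPPrimeCore 2 a :=
    fun a ha P hP => sup_le
      (H20.commutator_le_of_le_normalizer (hP.trans (le_normalizer_core' hA ha))) inf_le_left
  have hnorm : ∀ a ∈ A, ∀ P : Subgroup G, P ≤ A → A ≤ normalizer (factor P a : Set G) := by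
    intro a ha P hP
    have hAP : A ≤ centralizer (P : Set G) := fun x hx =>
      mem_centralizer_iff.mpr fun y hy => H52.elem_comm hA (hP hy) hx
    refine H59.le_normalizer_sup_of_le
      (H83.le_normalizer_commutator (le_normalizer_core' hA ha)
        (H20.le_normalizer_of_le_centralizer hAP))
      (H20.le_normalizer_inf (le_normalizer_core' hA ha)
        (hAP.trans (centralizer_le_normalizer_coreC P)))
  refine ⟨fun a ha _ => ((inf_le_left).trans (hle a ha A₁ h1A)).trans (core_le_centralizer a),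
    fun a ha _ h => ?_, fun a ha _ c hc x hx => H20.conj_mem_of_le_normalizer
      (H20.le_normalizer_inf (hnorm a ha A₁ h1A) (hnorm a ha A₂ h2A)) hc hx,
    fun a ha _ b hb hb1 => ?_⟩
  · exact Nat.not_even_iff_odd.mpr (Nat.coprime_two_right.mp ((core_coprime a).coprime_dvd_left
      (card_dvd_of_le (inf_le_left.trans (hle a ha A₁ h1A))))) (even_iff_two_dvd.mpr h)
  set D := (factor A₁ a ⊓ factor A₂ a) ⊓ centralizer ({b} : Set G) with hD
  have hAD : A ≤ normalizer (D : Set G) :=
    H20.le_normalizer_inf (H20.le_normalizer_inf (hnorm a ha A₁ h1A) (hnorm a ha A₂ h2A))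
      (fun x hx => le_normalizer (mem_centralizer_of_mem hA hx hb))
  have hD1 : D ≤ factor A₁ a := inf_le_left.trans inf_le_left
  have hD2 : D ≤ factor A₂ a := inf_le_left.trans inf_le_right
  have hDb : D ≤ centralizerPPrimeCore 2 b := by
    intro x hx
    refine mem_core_of_centralizes hA ha hb (x := ⟨x, hx.2⟩) (hle a ha A₁ h1A (hD1 hx)) fun L hL => ?_
    obtain ⟨y, hy, e⟩ : x ∈ ((centralizer (SetLike.coe L)).comap (cmap b)).map
        (centralizer ({b} : Set G)).subtype := by
      rcases hsep b hb hb1 L hL with h | h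
      · exact cmap_mem_centralizer hA h1A h2A h14 hdec hsep hodd ha hb inf_le_right hD1 hAD hL h hx
      · exact cmap_mem_centralizer hA h2A h1A h24 hdec' hsep' hodd ha hb inf_le_right hD2 hAD hL h hx
    obtain rfl : y = ⟨x, hx.2⟩ := Subtype.ext e
    exact hy
  exact le_inf (factor_balance hA h1A h2A h14 hdec hsep hodd ha hDb hD1 hAD)
    (factor_balance hA h2A h1A h24 hdec' hsep' hodd ha hDb hD2 hAD)

end Cfsg.Agent.H52.CoreSep
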