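import Mathlib
import Cfsg.Agent.H54.ConstrainedKey
import Cfsg.Agent.H53.OmegaFaithful
import Cfsg.Agent.H24.ClassTwo

/-! For `p` odd: fixed elements of order `p` of a `p`-group of operators detect coprime action. -/

set_option autoImplicit false
open scoped commutatorElement

namespace Cfsg.Agent.H52

variable {G : Type*} [Group G] [Finite G] {p : ℕ} [Fact p.Prime]

/-- If `A` is a `p`-group acting on the `p`-group `T` and on the `p'`-group `Y ≤ N(T)`, `p` odd, and
`Y` centralizes the elements of order dividing `p` of `C_T(A)`, then `Y` centralizes `T`. -/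
theorem le_centralizer_of_fixed_order_p (hp : p ≠ 2) {Y A : Subgroup G}
    (hY : (Nat.card Y).Coprime p) (hA : IsPGroup p A) (hAY : A ≤ Subgroup.normalizer (Y : Set G)) :
    ∀ {T : Subgroup G}, IsPGroup p T → Y ≤ Subgroup.normalizer (T : Set G) →
      A ≤ Subgroup.normalizer (T : Set G) →
      (∀ t ∈ T ⊓ Subgroup.centralizer (A : Set G), t ^ p = 1 →
        t ∈ Subgroup.centralizer (Y : Set G)) →
      Y ≤ Subgroup.centralizer (T : Set G) := by
  intro T
  induction hn : Nat.card T using Nat.strong_induction_on generalizing T with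
  | _ n ih =>
    intro hT hYT hAT hfix
    subst hn
    have hlt : ∀ D : Subgroup G, D ≤ T → D ≠ T → Y ≤ Subgroup.normalizer (D : Set G) →
        A ≤ Subgroup.normalizer (D : Set G) → Y ≤ Subgroup.centralizer (D : Set G) := by
      intro D hD hne hYD hAD
      have hc : Nat.card D < Nat.card T := by
        refine lt_of_le_of_ne (Nat.le_of_dvd Nat.card_pos (Subgroup.card_dvd_of_le hD)) ?_
        exact fun h => hne (Subgroup.eq_of_le_of_card_ge hD h.ge)
      exact ih _ hc rfl (hT.to_le hD) hYD hAD fun t ht => hfix t ⟨hD ht.1, ht.2⟩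
    have hcop : (Nat.card Y).Coprime (Nat.card T) := by
      obtain ⟨k, hk⟩ := IsPGroup.iff_card.1 hT
      exact hk ▸ hY.pow_right k
    have hsolv : Group.IsSolvable Y ∨ Group.IsSolvable T := by
      haveI := hT.isNilpotent
      exact Or.inr inferInstance
    set M := ⁅T, Y⁆ with hMdef
    have hMT : M ≤ T := Subgroup.le_normalizer_iff_commutator_le_left.1 hYT
    by_cases hM : M = T
    swap
    · have hYM := hlt M hMT hM (H54.le_normalizer_commutator hYT Subgroup.le_normalizer)
        (H54.le_normalizer_commutator hAT hAY)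
      refine H20.le_centralizer_of_commutator_commutator_eq_bot hYT hcop hsolv ?_
      rw [Subgroup.commutator_eq_bot_iff_le_centralizer]
      exact Subgroup.le_centralizer_iff.1 hYM
    set D := ⁅T, T⁆ with hDdef
    have hDT : D ≤ T := Subgroup.le_normalizer_iff_commutator_le_left.1 Subgroup.le_normalizer
    have hNT : ∀ S : Subgroup G, S ≤ Subgroup.normalizer (T : Set G) →
        S ≤ Subgroup.normalizer (D : Set G) := fun S hS => H54.le_normalizer_commutator hS hS
    by_cases hD : D = T
    · have hT1 : T = ⊥ := by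
        by_contra hne
        exact (H20.commutator_lt_of_isPGroup hT hT Subgroup.le_normalizer hne).ne hD
      rw [hT1]
      intro y _ t ht
      simp [Subgroup.mem_bot.1 ht]
    have hYD := hlt D hDT hD (hNT Y hYT) (hNT A hAT)
    have hDY : ⁅D, Y⁆ = ⊥ := by
      rw [Subgroup.commutator_eq_bot_iff_le_centralizer]
      exact Subgroup.le_centralizer_iff.1 hYD
    have h1 : ⁅⁅D, Y⁆, T⁆ = ⊥ := by rw [hDY, Subgroup.commutator_bot_left]
    have h2 : ⁅⁅T, D⁆, Y⁆ = ⊥ := by
      refine le_bot_iff.1 ?_
      rw [← hDY]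
      refine Subgroup.commutator_mono ?_ le_rfl
      rw [Subgroup.commutator_comm]
      exact Subgroup.le_normalizer_iff_commutator_le_left.1 (hNT T Subgroup.le_normalizer)
    have h3 : ⁅⁅Y, T⁆, D⁆ = ⊥ := Subgroup.commutator_commutator_eq_bot_of_rotate h2 h1
    rw [Subgroup.commutator_comm Y T, ← hMdef, hM,
      Subgroup.commutator_eq_bot_iff_le_centralizer] at h3
    have hc : ∀ s t : T, ⁅s, t⁆ ∈ Subgroup.center T := fun s t =>
      Subgroup.mem_center_iff.2 fun u => Subtype.ext (h3 u.2 ((⁅s, t⁆ : T) : G) (by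
        rw [show ((⁅s, t⁆ : T) : G) = ⁅(s : G), (t : G)⁆ from map_commutatorElement T.subtype s t]
        exact Subgroup.commutator_mem_commutator s.2 t.2)).symm
    -- the elements of order dividing `p` form a subgroup
    let E : Subgroup G :=
      { carrier := {x | x ∈ T ∧ x ^ p = 1}
        one_mem' := ⟨one_mem _, one_pow _⟩
        inv_mem' := fun {x} hx => ⟨inv_mem hx.1, by rw [inv_pow, hx.2, inv_one]⟩
        mul_mem' := fun {x y} hx hy => ⟨mul_mem hx.1 hy.1, by
          let s : T := ⟨x, hx.1⟩
          let t : T := ⟨y, hy.1⟩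
          have ht : t ^ p = 1 := Subtype.ext hy.2
          have hcp : ⁅t, s⁆ ^ p = 1 := by
            rw [← H24.comm_pow_left (hc t s), ht, commutatorElement_one_left]
          have h := H24.mul_pow_of_class_three (x := s) (y := t) (c := ⁅t, s⁆) (d := 1) (e := 1)
            (by simp [commutatorElement_def, mul_assoc])
            (by rw [one_mul]; exact (Subgroup.mem_center_iff.mp (hc t s) s).symm)
            (by rw [one_mul]; exact (Subgroup.mem_center_iff.mp (hc t s) t).symm)
            (one_mem _) (one_mem _) p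
          obtain ⟨j, hj⟩ := (Fact.out : p.Prime).dvd_choose_self two_ne_zero
            (lt_of_le_of_ne (Fact.out : p.Prime).two_le (Ne.symm hp))
          rw [ht, show s ^ p = 1 from Subtype.ext hx.2, hj, pow_mul, hcp] at h
          simp only [one_pow, mul_one] at h
          exact congrArg Subtype.val h⟩ }
    have hET : E ≤ T := fun x hx => hx.1
    have hNE : ∀ S : Subgroup G, S ≤ Subgroup.normalizer (T : Set G) →
        S ≤ Subgroup.normalizer (E : Set G) := fun S hS =>
      Subgroup.le_normalizer_iff.mpr fun g hg x hx =>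
        ⟨Subgroup.le_normalizer_iff.mp hS g hg x hx.1, by rw [conj_pow, hx.2, mul_one, mul_inv_cancel]⟩
    have hYE : Y ≤ Subgroup.centralizer (E : Set G) := by
      refine H54.le_centralizer_of_class_two hp (hT.to_le hET) hY hA (hNE Y hYT) (hNE A hAT) hAY
        (fun s t => ?_) fun x hx => hfix x ⟨hx.1.1, hx.2⟩ hx.1.2
      refine Subgroup.mem_center_iff.2 fun u => Subtype.ext ?_
      have := congrArg (fun z : T => (z : G))
        (Subgroup.mem_center_iff.1 (hc ⟨s, hET s.2⟩ ⟨t, hET t.2⟩) ⟨u, hET u.2⟩)
      simpa [commutatorElement_def] using this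
    refine H53.le_centralizer_of_fixes_order_p hp T Y hT hYT hY fun x hx hxp => ?_
    exact Subgroup.le_centralizer_iff.mp hYE (show x ∈ E from ⟨hx, hxp ▸ pow_orderOf_eq_one x⟩)

end Cfsg.Agent.H52
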