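import Mathlib
import Cfsg.Agent.H20.Sylow
import Cfsg.Agent.H20.Abelian
import Cfsg.Agent.H52.Quotient

/-! The fixed point formula for a coprime action of a noncyclic group of order `p²`. -/

set_option autoImplicit false
open scoped IsMulCommutative

namespace Cfsg.Agent.H52.FixedPointFormula

open Subgroup

variable {E : Type*} [CommGroup E] [Finite E] {p : ℕ} [hp : Fact p.Prime]

/-- The subgroups of order `p`. -/
abbrev Line (E : Type*) [CommGroup E] (p : ℕ) := {B : Subgroup E // Nat.card B = p}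

/-- Fixed points in `K` of a subgroup of the operator group. -/
def fix {G : Type*} [Group G] (ι : E →* G) (K : Subgroup G) (B : Subgroup E) : Subgroup G :=
  K ⊓ centralizer (B.map ι : Set G)

section lines

variable (hE : ∀ e : E, e ^ p = 1) (hcard : Nat.card E = p ^ 2)
include hE

theorem card_zpowers_eq {e : E} (he : e ≠ 1) : Nat.card (zpowers e) = p := by
  rw [Nat.card_zpowers]; exact orderOf_eq_prime (hE e) he

theorem line_eq_zpowers (B : Line E p) {e : E} (he : e ∈ B.1) (he1 : e ≠ 1) : B.1 = zpowers e :=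
  (eq_of_le_of_card_ge (zpowers_le.mpr he) (by rw [B.2, card_zpowers_eq hE he1])).symm

/-- Summing over the nonidentity elements line by line. -/
theorem prod_lines {M : Type*} [CommMonoid M] [Fintype (Line E p)] (f : E → M) :
    ∏ B : Line E p, ∏ e ∈ (Set.toFinite ((B.1 : Set E) \ {1})).toFinset, f e =
      ∏ e ∈ (Set.toFinite ({1}ᶜ : Set E)).toFinset, f e := by
  classical
  rw [← Finset.prod_biUnion]
  · refine Finset.prod_congr ?_ fun _ _ => rfl
    ext e
    simp only [Finset.mem_biUnion, Finset.mem_univ, true_and, Set.Finite.mem_toFinset, Set.mem_diff,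
      SetLike.mem_coe, Set.mem_singleton_iff, Set.mem_compl_iff]
    exact ⟨fun ⟨B, _, h⟩ => h, fun h => ⟨⟨zpowers e, card_zpowers_eq hE h⟩, mem_zpowers e, h⟩⟩
  · intro B _ B' _ hne
    refine Finset.disjoint_left.mpr fun e he he' => hne ?_
    simp only [Set.Finite.mem_toFinset, Set.mem_diff, SetLike.mem_coe, Set.mem_singleton_iff] at he he'
    exact Subtype.ext ((line_eq_zpowers hE B he.1 he.2).trans (line_eq_zpowers hE B' he'.1 he'.2).symm)

include hcard

theorem card_line [Fintype (Line E p)] : Fintype.card (Line E p) = p + 1 := by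
  classical
  have h := prod_lines hE (M := Multiplicative ℕ) (fun _ : E => Multiplicative.ofAdd 1)
  simp only [Finset.prod_const, ← ofAdd_nsmul, smul_eq_mul, mul_one] at h
  have hB : ∀ B : Line E p, (Set.toFinite ((B.1 : Set E) \ {1})).toFinset.card = p - 1 := fun B => by
    rw [← Set.ncard_eq_toFinset_card _ (Set.toFinite _), Set.ncard_diff (by simp),
      Set.ncard_singleton]
    rw [show ((B.1 : Set E)).ncard = Nat.card B.1 from rfl, B.2]
  simp only [hB, Finset.prod_const, Finset.card_univ] at h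
  have h2 : (Set.toFinite ({1}ᶜ : Set E)).toFinset.card = p ^ 2 - 1 := by
    rw [← Set.ncard_eq_toFinset_card _ (Set.toFinite _), Set.ncard_compl, Set.ncard_singleton, hcard]
  rw [h2, ← ofAdd_nsmul, smul_eq_mul] at h
  have h3 : Fintype.card (Line E p) * (p - 1) = p ^ 2 - 1 := Multiplicative.ofAdd.injective h
  obtain ⟨k, hk⟩ : ∃ k, p = k + 2 := ⟨p - 2, by have := hp.out.two_le; omega⟩
  subst hk
  have h4 : (k + 2) ^ 2 - 1 = (k + 3) * (k + 1) := by
    have : (k + 2) ^ 2 = (k + 3) * (k + 1) + 1 := by ring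
    omega
  rw [h4, show k + 2 - 1 = k + 1 by omega] at h3
  exact Nat.eq_of_mul_eq_mul_right (Nat.succ_pos k) h3

omit hcard in
theorem sup_eq_top (hcard : Nat.card E = p ^ 2) {B B' : Line E p} (h : B ≠ B') : B.1 ⊔ B'.1 = ⊤ := by
  refine eq_top_of_le_card _ ?_
  obtain ⟨k, -, hk⟩ := (Nat.dvd_prime_pow hp.out).mp (hcard ▸ card_subgroup_dvd_card (B.1 ⊔ B'.1))
  have hlt : p < Nat.card ↥(B.1 ⊔ B'.1) := by
    by_contra hle
    have e1 := eq_of_le_of_card_ge (le_sup_left : B.1 ≤ B.1 ⊔ B'.1) (by rw [B.2]; omega)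
    have e2 := eq_of_le_of_card_ge (le_sup_right : B'.1 ≤ B.1 ⊔ B'.1) (by rw [B'.2]; omega)
    exact h (Subtype.ext (e1.trans e2.symm))
  rw [hk] at hlt ⊢
  rw [hcard]
  refine Nat.pow_le_pow_right hp.out.pos ?_
  have h1 : p ^ 1 < p ^ k := by rwa [pow_one]
  exact (Nat.pow_lt_pow_iff_right hp.out.one_lt).mp h1

end lines

variable {G : Type*} [Group G] [Finite G]

/-- The formula for an abelian group. -/
theorem formula_abelian (hE : ∀ e : E, e ^ p = 1) (hcard : Nat.card E = p ^ 2) (ι : E →* G)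
    {M : Subgroup G} [IsMulCommutative M] (hM : ι.range ≤ normalizer (M : Set G))
    (hc : (Nat.card M).Coprime p) [Fintype (Line E p)] :
    Nat.card M * Nat.card (fix ι M ⊤) ^ p = ∏ B : Line E p, Nat.card (fix ι M B.1) := by
  classical
  haveI := Fintype.ofFinite E
  let σ : E →* MulAut M := (H20.conjAut hM).comp ι.rangeRestrict
  have hσ : ∀ e (x : M), ((σ e x : M) : G) = ι e * x * (ι e)⁻¹ := fun e x => rfl
  have hfix : ∀ (B : Subgroup E) (x : M), (x : G) ∈ fix ι M B ↔ ∀ b ∈ B, σ b x = x := by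
    intro B x
    refine ⟨fun h b hb => Subtype.ext ?_, fun h => mem_inf.mpr ⟨x.2, mem_centralizer_iff.mpr ?_⟩⟩
    · rw [hσ, mem_centralizer_iff.mp h.2 _ ⟨b, hb, rfl⟩, mul_inv_cancel_right]
    · rintro _ ⟨b, hb, rfl⟩
      have := congrArg Subtype.val (h b hb)
      rw [hσ] at this
      exact mul_inv_eq_iff_eq_mul.mp this
  let N : Subgroup E → (M →* M) := fun B => ∏ e : B, (σ e).toMonoidHom
  have hN : ∀ B x, N B x = ∏ e : B, σ e x := fun B x => by
    simp [N, MonoidHom.finset_prod_apply]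
  have hNfix : ∀ (B : Subgroup E) x, ∀ b ∈ B, σ b (N B x) = N B x := fun B x b hb => by
    rw [hN, map_prod]
    refine Fintype.prod_equiv (Equiv.mulLeft (⟨b, hb⟩ : B)) _ _ fun e => ?_
    show σ b (σ e x) = σ ((⟨b, hb⟩ * e : B) : E) x
    rw [Subgroup.coe_mul, map_mul]; rfl
  -- the map from the product of the fixed subgroups
  let P₀ := ∀ B : Line E p, (fix ι M B.1).subgroupOf M
  let Φ : P₀ →* M :=
    { toFun := fun f => ∏ B, (f B : M)
      map_one' := Finset.prod_eq_one fun B _ => rfl
      map_mul' := fun f g => by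
        show ∏ B, ((f B : M) * g B) = _
        exact Finset.prod_mul_distrib }
  have hpow : ∀ y : M, ∀ (H : Subgroup M), y ^ p ∈ H → y ∈ H := fun y H hy => by
    obtain ⟨k, hk⟩ := exists_pow_eq_self_of_coprime (x := y) (n := p)
      (hc.symm.coprime_dvd_right (orderOf_dvd_natCard y))
    rw [← hk]; exact pow_mem hy k
  have hsum : ∀ x : M, ∏ B : Line E p, N B.1 x = x ^ p * N ⊤ x := by
    intro x
    have e1 : ∀ B : Subgroup E, N B x =
        x * ∏ e ∈ (Set.toFinite ((B : Set E) \ {1})).toFinset, σ e x := fun B => by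
      rw [hN, ← Finset.prod_subtype ((Set.toFinite (B : Set E)).toFinset) (by simp) (fun e => σ e x),
        ← Finset.mul_prod_erase _ _ (show (1 : E) ∈ (Set.toFinite (B : Set E)).toFinset by simp),
        map_one, MulAut.one_apply]
      congr 1
      refine Finset.prod_congr ?_ fun _ _ => rfl
      ext e; simp [and_comm]
    rw [Finset.prod_congr rfl (fun B _ => e1 B.1), Finset.prod_mul_distrib, Finset.prod_const,
      Finset.card_univ, card_line hE hcard, prod_lines hE (fun e => σ e x), e1 ⊤, pow_succ,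
      mul_assoc]
    congr 2
    refine Finset.prod_congr ?_ fun _ _ => rfl
    ext e; simp
  have hΦmem : ∀ f : Line E p → M, (∀ B, f B ∈ (fix ι M B.1).subgroupOf M) →
      ∏ B, f B ∈ Φ.range := fun f hf => ⟨fun B => ⟨f B, hf B⟩, rfl⟩
  have hsurj : Φ.range = ⊤ := top_unique fun x _ => hpow x _ (by
    have h1 : x ^ p = (∏ B : Line E p, N B.1 x) * (N ⊤ x)⁻¹ := by rw [hsum, mul_inv_cancel_right]
    rw [h1]
    refine mul_mem (hΦmem _ fun B => (hfix _ _).mpr (hNfix _ x)) (inv_mem ?_)
    obtain ⟨B₀⟩ : Nonempty (Line E p) := Fintype.card_pos_iff.mp (by rw [card_line hE hcard]; omega)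
    have := hΦmem (Pi.mulSingle B₀ (N ⊤ x)) fun B => by
      rcases eq_or_ne B B₀ with rfl | h
      · rw [Pi.mulSingle_eq_same]
        exact (hfix _ _).mpr fun b _ => hNfix ⊤ x b (mem_top b)
      · rw [Pi.mulSingle_eq_of_ne h]; exact one_mem _
    rwa [Finset.prod_pi_mulSingle' B₀ (N ⊤ x) Finset.univ, if_pos (Finset.mem_univ _)] at this)
  let C := (fix ι M ⊤).subgroupOf M
  let D : Subgroup P₀ :=
    { carrier := {f | ∀ B, (f B : M) ∈ C}
      one_mem' := fun B => one_mem C
      mul_mem' := fun hf hg B => mul_mem (hf B) (hg B)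
      inv_mem' := fun hf B => inv_mem (hf B) }
  have hker : Φ.ker ≤ D := by
    intro f hf B
    have h0 : N B.1 (∏ B', (f B' : M)) = 1 := by
      rw [show (∏ B', (f B' : M)) = Φ f from rfl, hf, map_one]
    rw [map_prod, ← Finset.mul_prod_erase _ _ (Finset.mem_univ B)] at h0
    have h1 : N B.1 (f B : M) ∈ C := by
      rw [eq_inv_of_mul_eq_one_left h0]
      refine inv_mem (prod_mem fun B' hB' => (hfix _ _).mpr fun e _ => ?_)
      have hne : B ≠ B' := fun h => (Finset.mem_erase.mp hB').1 h.symm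
      let S : Subgroup E :=
        { carrier := {e | σ e (N B.1 (f B' : M)) = N B.1 (f B' : M)}
          one_mem' := by simp
          mul_mem' := fun {a b} (ha : _ = _) (hb : _ = _) => by
            show σ (a * b) _ = _
            rw [map_mul, MulAut.mul_apply, hb, ha]
          inv_mem' := fun {a} (ha : _ = _) => by
            show σ a⁻¹ _ = _
            conv_lhs => rw [← ha, map_inv]
            simp }
      have hS : B.1 ⊔ B'.1 ≤ S := sup_le (fun b hb => hNfix B.1 _ b hb) fun b hb => by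
        show σ b _ = _
        rw [hN, map_prod]
        refine Finset.prod_congr rfl fun e _ => ?_
        rw [← MulAut.mul_apply, ← map_mul, mul_comm, map_mul, MulAut.mul_apply,
          (hfix _ _).mp (f B').2 b hb]
      rw [sup_eq_top hE hcard hne] at hS
      exact hS (mem_top e)
    refine hpow _ _ ?_
    rwa [hN, Finset.prod_congr rfl (fun (e : B.1) _ => (hfix B.1 _).mp (f B).2 e e.2),
      Finset.prod_const, Finset.card_univ, ← Nat.card_eq_fintype_card, B.2] at h1
  have hDmap : D.map Φ = C := by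
    refine le_antisymm ?_ fun x hx => ?_
    · rintro _ ⟨f, hf, rfl⟩
      exact prod_mem fun B _ => hf B
    · obtain ⟨B₀⟩ : Nonempty (Line E p) := Fintype.card_pos_iff.mp (by rw [card_line hE hcard]; omega)
      have hmem : x ∈ (fix ι M B₀.1).subgroupOf M :=
        (hfix _ _).mpr fun b _ => (hfix ⊤ x).mp hx b (mem_top b)
      refine ⟨Pi.mulSingle B₀ ⟨x, hmem⟩, fun B => ?_, ?_⟩
      · rcases eq_or_ne B B₀ with rfl | h
        · rw [Pi.mulSingle_eq_same]; exact hx
        · rw [Pi.mulSingle_eq_of_ne h]; exact one_mem C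
      · show ∏ B, ((Pi.mulSingle B₀ ⟨x, hmem⟩ : P₀) B : M) = x
        rw [Finset.prod_eq_single B₀ (fun B _ h => by rw [Pi.mulSingle_eq_of_ne h]; rfl) (by simp),
          Pi.mulSingle_eq_same]
  have hD : Nat.card D = Nat.card C ^ (p + 1) := by
    let e : D ≃ (Line E p → C) :=
      { toFun := fun f B => ⟨f.1 B, f.2 B⟩
        invFun := fun g => ⟨fun B => ⟨g B, (hfix _ _).mpr fun b _ =>
          (hfix ⊤ (g B : M)).mp (g B).2 b (mem_top b)⟩, fun B => (g B).2⟩
        left_inv := fun f => rfl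
        right_inv := fun g => rfl }
    rw [Nat.card_congr e, Nat.card_fun, Nat.card_eq_fintype_card (α := Line E p), card_line hE hcard]
  have h1 : Nat.card P₀ = Nat.card Φ.ker * Nat.card M := by
    rw [← Φ.ker.card_mul_index, index_ker, hsurj, card_top]
  have h2 : Nat.card D = Nat.card Φ.ker * Nat.card C := by
    rw [← (Φ.ker.subgroupOf D).card_mul_index, Nat.card_congr (subgroupOfEquivOfLe hker).toEquiv,
      ← relIndex, relIndex_ker, hDmap]
  have hC : Nat.card C = Nat.card (fix ι M ⊤) := Nat.card_congr (subgroupOfEquivOfLe inf_le_left).toEquiv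
  have hk : Nat.card Φ.ker = Nat.card C ^ p :=
    Nat.eq_of_mul_eq_mul_right Nat.card_pos (h2.symm.trans (hD.trans (pow_succ _ _)))
  rw [hk, hC] at h1
  rw [mul_comm, ← h1, Nat.card_pi]
  exact Finset.prod_congr rfl fun B _ => Nat.card_congr (subgroupOfEquivOfLe inf_le_left).toEquiv

/-- Order of an image. -/
theorem card_eq_card_inf_mul {G' : Type*} [Group G'] {H : Subgroup G} (f : G →* G') :
    Nat.card H = Nat.card ↥(f.ker ⊓ H) * Nat.card (H.map f) := by
  rw [← relIndex_ker, ← Nat.card_congr (subgroupOfEquivOfLe (inf_le_right : f.ker ⊓ H ≤ H)).toEquiv,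
    ← inf_relIndex_right, relIndex, card_mul_index]

omit [Finite G] in
/-- Fixed points computed in a subgroup. -/
theorem map_fix_subtype {H : Subgroup G} (ι : E →* H) (K : Subgroup G) (B : Subgroup E) :
    (fix ι (K.subgroupOf H) B).map H.subtype =
      H ⊓ fix (H.subtype.comp ι) K B := by
  ext x
  constructor
  · rintro ⟨y, ⟨hy, hyc⟩, rfl⟩
    exact ⟨y.2, hy, mem_centralizer_iff.mpr fun z ⟨b, hb, e⟩ => by
      subst e
      exact congrArg Subtype.val (mem_centralizer_iff.mp hyc _ ⟨b, hb, rfl⟩)⟩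
  · rintro ⟨hxH, hxK, hxc⟩
    exact ⟨⟨x, hxH⟩, ⟨hxK, mem_centralizer_iff.mpr fun z ⟨b, hb, e⟩ => by
      subst e
      exact Subtype.ext (mem_centralizer_iff.mp hxc _ ⟨b, hb, rfl⟩)⟩, rfl⟩

omit [Finite G] in
/-- The image of the operator group normalises the fixed points. -/
theorem range_le_normalizer_fix (ι : E →* G) {K : Subgroup G}
    (hK : ι.range ≤ normalizer (K : Set G)) (B : Subgroup E) :
    ι.range ≤ normalizer (fix ι K B : Set G) := by
  refine (le_inf hK ((le_trans ?_ le_normalizer))).trans inf_normalizer_le_normalizer_inf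
  rintro _ ⟨e, rfl⟩
  refine mem_centralizer_iff.mpr ?_
  rintro _ ⟨b, -, rfl⟩
  rw [← map_mul, mul_comm, map_mul]

/-- The formula for groups of prime power order. -/
theorem formula_pGroup.{u} (hE : ∀ e : E, e ^ p = 1) (hcard : Nat.card E = p ^ 2) {q : ℕ}
    [Fact q.Prime] (hqp : q ≠ p) [Fintype (Line E p)] :
    ∀ (n : ℕ) (G : Type u) [Group G] [Finite G] (ι : E →* G) (Q : Subgroup G),
      Nat.card Q ≤ n → IsPGroup q Q → ι.range ≤ normalizer (Q : Set G) →
      Nat.card Q * Nat.card (fix ι Q ⊤) ^ p = ∏ B : Line E p, Nat.card (fix ι Q B.1) := by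
  intro n
  induction n with
  | zero => intro G _ _ ι Q h; exact absurd h (not_le.mpr Nat.card_pos)
  | succ n ih =>
    intro G _ _ ι Q hn hQ hnorm
    have hcop : ∀ L : Subgroup G, L ≤ Q → (Nat.card L).Coprime p := fun L hL => by
      obtain ⟨k, hk⟩ := IsPGroup.iff_card.mp (hQ.to_le hL)
      rw [hk]
      exact ((Nat.coprime_primes Fact.out hp.out).mpr hqp).pow_left k
    set V := (center Q).map Q.subtype with hV
    have hVQ : V ≤ Q := map_subtype_le _
    by_cases hVQ' : V = Q
    · haveI : IsMulCommutative Q := ⟨⟨fun x y => by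
        have hxV : (x : G) ∈ (center Q).map Q.subtype := by rw [← hV, hVQ']; exact x.2
        obtain ⟨z, hz, e⟩ := hxV
        obtain rfl : z = x := Subtype.ext e
        exact (mem_center_iff.mp hz y).symm⟩⟩
      exact formula_abelian hE hcard ι hnorm (hcop Q le_rfl)
    have hne : V ≠ ⊥ := fun h => by
      rcases subsingleton_or_nontrivial Q with hs | hs
      · exact hVQ' (by rw [h]; exact (eq_bot_iff.mpr fun x hx =>
          mem_bot.mpr (congrArg Subtype.val (Subsingleton.elim (⟨x, hx⟩ : Q) 1))).symm)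
      · exact ((nontrivial_iff_ne_bot _).mp hQ.center_nontrivial) ((map_eq_bot_iff_of_injective _ Q.subtype_injective).mp h)
    haveI : IsMulCommutative V := inferInstance
    have hnormV : normalizer (Q : Set G) ≤ normalizer (V : Set G) := by
      refine le_normalizer_iff.mpr fun g hg x ⟨z, hz, e⟩ => ?_
      refine ⟨Q.normalizerMonoidHom ⟨g, hg⟩ z, ?_, by rw [← e]; rfl⟩
      rw [SetLike.mem_coe, mem_center_iff] at hz ⊢
      intro w
      have := congrArg (Q.normalizerMonoidHom ⟨g, hg⟩) (hz ((Q.normalizerMonoidHom ⟨g, hg⟩).symm w))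
      simpa using this
    set H := normalizer (V : Set G) with hH
    have hQH : Q ≤ H := le_normalizer.trans hnormV
    have hιH : ι.range ≤ H := hnorm.trans hnormV
    haveI : (V.subgroupOf H).Normal := normal_subgroupOf_of_le_normalizer le_rfl
    let ι₁ : E →* H := ι.codRestrict H fun e => hιH ⟨e, rfl⟩
    let f := QuotientGroup.mk' (V.subgroupOf H)
    let ι₂ : E →* H ⧸ V.subgroupOf H := f.comp ι₁
    let Q₂ := (Q.subgroupOf H).map f
    have hι : H.subtype.comp ι₁ = ι := rfl
    have hker : f.ker = V.subgroupOf H := QuotientGroup.ker_mk' _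
    have hcQ : Nat.card (Q.subgroupOf H) = Nat.card Q :=
      Nat.card_congr (subgroupOfEquivOfLe hQH).toEquiv
    have hfixcard : ∀ B : Subgroup E, Nat.card (fix ι₁ (Q.subgroupOf H) B) = Nat.card (fix ι Q B) := by
      intro B
      rw [Nat.card_congr ((fix ι₁ (Q.subgroupOf H) B).equivMapOfInjective _ H.subtype_injective).toEquiv,
        map_fix_subtype, hι, inf_eq_right.mpr (show fix ι Q B ≤ H from inf_le_left.trans hQH)]
    have himage : ∀ B : Subgroup E, (fix ι₁ (Q.subgroupOf H) B).map f = fix ι₂ Q₂ B := by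
      intro B
      have hc : (Nat.card (B.map ι₁)).Coprime (Nat.card f.ker) := by
        rw [hker, Nat.card_congr (subgroupOfEquivOfLe le_normalizer).toEquiv]
        refine Nat.Coprime.coprime_dvd_left ?_ ((hcop V hVQ).pow_right 2).symm
        exact (card_map_dvd _ _).trans (hcard ▸ card_subgroup_dvd_card B)
      haveI : IsMulCommutative (B.map ι₁) := inferInstance
      show _ = Q₂ ⊓ centralizer (B.map (f.comp ι₁) : Set _)
      rw [← map_map, ← map_centralizer_eq_of_coprime f (QuotientGroup.mk'_surjective _) _ hc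
        (Group.isSolvable_of_comm fun a b => mul_comm' a b)]
      refine le_antisymm (le_inf (map_mono inf_le_left) (map_mono inf_le_right)) ?_
      rintro y ⟨⟨x, hx, rfl⟩, ⟨c, hc, hcx⟩⟩
      refine ⟨c, ⟨?_, hc⟩, hcx⟩
      have h1 : x⁻¹ * c ∈ f.ker := f.eq_iff.mp hcx
      rw [hker] at h1
      have h2 : (x⁻¹ * c : H) ∈ Q.subgroupOf H := mem_subgroupOf.mpr (hVQ h1)
      simpa using mul_mem hx h2
    have hsplit : ∀ B : Subgroup E,
        Nat.card (fix ι Q B) = Nat.card (fix ι V B) * Nat.card (fix ι₂ Q₂ B) := by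
      intro B
      rw [← hfixcard, card_eq_card_inf_mul f, himage, hker]
      congr 1
      rw [Nat.card_congr ((V.subgroupOf H ⊓ fix ι₁ (Q.subgroupOf H) B).equivMapOfInjective _
        H.subtype_injective).toEquiv, map_inf _ _ _ H.subtype_injective, map_fix_subtype, hι,
        subgroupOf_map_subtype, inf_eq_left.mpr le_normalizer]
      congr 2
      refine le_antisymm (fun x hx => ⟨hx.1, hx.2.2.2⟩) fun x hx => ⟨hx.1, le_normalizer hx.1, hVQ hx.1, hx.2⟩
    have hQ₂ : Nat.card Q = Nat.card V * Nat.card Q₂ := by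
      rw [← hcQ, card_eq_card_inf_mul f, hker, inf_eq_left.mpr (fun x hx => hVQ hx),
        Nat.card_congr (subgroupOfEquivOfLe le_normalizer).toEquiv]
    have hlt : Nat.card Q₂ ≤ n := by
      have h1 : 2 ≤ Nat.card V := (one_lt_card_iff_ne_bot _).mpr hne
      have h2 : 2 * Nat.card Q₂ ≤ n + 1 := le_trans (Nat.mul_le_mul_right _ h1) (hQ₂ ▸ hn)
      have := Nat.card_pos (α := Q₂)
      omega
    have hI := ih (H ⧸ V.subgroupOf H) ι₂ Q₂ hlt
      (((hQ.comap_of_injective H.subtype H.subtype_injective : IsPGroup q (Q.subgroupOf H))).map f) (by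
        rintro _ ⟨e, rfl⟩
        refine le_normalizer_map f ⟨ι₁ e, ?_, rfl⟩
        have := mem_normalizer_iff.mp (hnorm ⟨e, rfl⟩)
        exact mem_normalizer_iff.mpr fun h => this h)
    have hA := formula_abelian hE hcard ι (M := V) (hnorm.trans hnormV) (hcop V hVQ)
    rw [hQ₂, hsplit ⊤, Finset.prod_congr rfl fun B _ => hsplit B.1, Finset.prod_mul_distrib, ← hA, ← hI]
    ring

omit hp in
/-- An invariant Sylow subgroup meets fixed points in a Sylow subgroup. -/
theorem card_fix_sylow (hcard : Nat.card E = p ^ 2) (ι : E →* G) {K Q : Subgroup G} {q : ℕ}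
    [Fact q.Prime] (hK : ι.range ≤ normalizer (K : Set G)) (hc : (Nat.card K).Coprime p)
    (hQK : Q ≤ K) (hQ : ι.range ≤ normalizer (Q : Set G))
    (hQc : Nat.card Q = q ^ (Nat.card K).factorization q) (B : Subgroup E) :
    Nat.card (fix ι Q B) = q ^ (Nat.card (fix ι K B)).factorization q := by
  have hcop : (Nat.card ι.range).Coprime (Nat.card K) :=
    Nat.Coprime.coprime_dvd_left (hcard ▸ card_range_dvd ι) (hc.symm.pow_left 2)
  have hsolv : Group.IsSolvable ι.range := Group.isSolvable_of_comm fun a b => mul_comm' a b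
  have hle : fix ι K B ≤ K := inf_le_left
  obtain ⟨R, hR, hRA, hRp, hRc⟩ := H20.exists_invariant_sylow_subgroup
    (range_le_normalizer_fix ι hK B) (H20.coprime_card_mono_right hcop hle) (Or.inl hsolv) q
  obtain ⟨P, hRP, hPA⟩ := H20.exists_invariant_sylow_ge hK hcop (Or.inl hsolv) q (hR.trans hle) hRp hRA
  obtain ⟨c, hc', hcP⟩ := H20.invariant_sylow_subgroup_conj hK hcop (Or.inl hsolv)
    (map_subtype_le _) hQK (H20.card_map_sylow P) hQc hPA hQ
  refine le_antisymm ?_ ?_
  · obtain ⟨k, hk⟩ := IsPGroup.iff_card.mp ((IsPGroup.of_card hQc).to_le (inf_le_left : fix ι Q B ≤ Q))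
    have hk' : Nat.card (fix ι Q B) = q ^ k := hk
    rw [hk']
    refine Nat.pow_le_pow_right (Fact.out : q.Prime).pos ?_
    refine (Nat.Prime.pow_dvd_iff_le_factorization Fact.out Nat.card_pos.ne').mp ?_
    rw [← hk']
    exact card_dvd_of_le (inf_le_inf_right _ hQK)
  · rw [← hRc, ← H20.card_conj_smul c R]
    refine Nat.le_of_dvd Nat.card_pos (card_dvd_of_le fun x hx => ?_)
    obtain ⟨r, hr, rfl⟩ := hx
    refine mem_inf.mpr ⟨?_, ?_⟩
    · rw [← hcP]; exact ⟨r, hRP hr, rfl⟩
    · have hcB : c ∈ centralizer (B.map ι : Set G) := centralizer_le (map_le_range ι B) hc'.2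
      exact mul_mem (mul_mem hcB (hR hr).2) (inv_mem hcB)

/-- The fixed point formula. -/
theorem formula.{u} (hE : ∀ e : E, e ^ p = 1) (hcard : Nat.card E = p ^ 2) {G : Type u} [Group G]
    [Finite G] (ι : E →* G) {K : Subgroup G} (hK : ι.range ≤ normalizer (K : Set G))
    (hc : (Nat.card K).Coprime p) [Fintype (Line E p)] :
    Nat.card K * Nat.card (fix ι K ⊤) ^ p = ∏ B : Line E p, Nat.card (fix ι K B.1) := by
  refine Nat.eq_of_factorization_eq (Nat.mul_ne_zero Nat.card_pos.ne' (pow_ne_zero _ Nat.card_pos.ne'))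
    (Finset.prod_ne_zero_iff.mpr fun B _ => Nat.card_pos.ne') fun q => ?_
  rw [Nat.factorization_mul Nat.card_pos.ne' (pow_ne_zero _ Nat.card_pos.ne'),
    Nat.factorization_prod (fun B _ => Nat.card_pos.ne'), Nat.factorization_pow]
  simp only [Finsupp.coe_add, Pi.add_apply, Finsupp.coe_smul, Pi.smul_apply, smul_eq_mul,
    Finsupp.coe_finsetSum, Finset.sum_apply]
  by_cases hq : q.Prime
  swap
  · simp [Nat.factorization_eq_zero_of_not_prime _ hq]
  haveI := Fact.mk hq
  by_cases hqp : q = p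
  · subst hqp
    have h0 : ∀ B : Subgroup E, (Nat.card (fix ι K B)).factorization q = 0 := fun B =>
      Nat.factorization_eq_zero_of_not_dvd fun h => (hq.coprime_iff_not_dvd.mp hc.symm)
        (h.trans (card_dvd_of_le inf_le_left))
    simp [h0, Nat.factorization_eq_zero_of_not_dvd (hq.coprime_iff_not_dvd.mp hc.symm)]
  have hcop : (Nat.card ι.range).Coprime (Nat.card K) :=
    Nat.Coprime.coprime_dvd_left (hcard ▸ card_range_dvd ι) (hc.symm.pow_left 2)
  obtain ⟨Q, hQK, hQA, hQp, hQc⟩ := H20.exists_invariant_sylow_subgroup hK hcop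
    (Or.inl (Group.isSolvable_of_comm fun a b => mul_comm' a b)) q
  have h := formula_pGroup hE hcard hqp (Nat.card Q) G ι Q le_rfl hQp hQA
  rw [hQc, card_fix_sylow hcard ι hK hc hQK hQA hQc ⊤,
    Finset.prod_congr rfl fun B _ => card_fix_sylow hcard ι hK hc hQK hQA hQc B.1, ← pow_mul, ← pow_add,
    Finset.prod_pow_eq_pow_sum] at h
  have h' := Nat.pow_right_injective hq.two_le h
  rw [← h', mul_comm]

end Cfsg.Agent.H52.FixedPointFormula
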