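import Mathlib
import Cfsg.Agent.H20.FixedPoints

/-! Centralisers in a solvable group generated by a compatible family of fixed-point subgroups. -/

set_option autoImplicit false

namespace Cfsg.Agent.H52

open Subgroup
open scoped Pointwise commutatorElement

variable {G : Type*} [Group G]

/-- A subgroup normalising `H` normalises its derived group. -/
theorem le_normalizer_commutator_self {A H : Subgroup G} (h : A ≤ normalizer (H : Set G)) :
    A ≤ normalizer ((⁅H, H⁆ : Subgroup G) : Set G) := by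
  refine le_normalizer_iff.mpr fun a ha x hx => ?_
  have hm : map (MulAut.conj a).toMonoidHom H ≤ H := by
    rintro _ ⟨y, hy, rfl⟩
    exact (mem_normalizer_iff.mp (h ha) y).mp hy
  have h2 : map (MulAut.conj a).toMonoidHom ⁅H, H⁆ ≤ ⁅H, H⁆ := by
    rw [map_commutator]; exact commutator_mono hm hm
  exact h2 ⟨x, hx, rfl⟩

/-- The iterated derived groups of a solvable subgroup reach every subgroup. -/
theorem exists_abelian_step {A K N : Subgroup G} [Group.IsSolvable K] (hN : N ≤ K)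
    (hAK : A ≤ normalizer (K : Set G)) (hAN : A ≤ normalizer (N : Set G))
    (hKN : K ≤ normalizer (N : Set G)) (hne : N ≠ K) :
    ∃ V : Subgroup G, N < V ∧ V ≤ K ∧ A ≤ normalizer (V : Set G) ∧
      K ≤ normalizer (V : Set G) ∧ ⁅V, V⁆ ≤ N := by
  set D : ℕ → Subgroup G := fun i => (derivedSeries ↥K i).map K.subtype with hD
  have hD0 : D 0 = K := by simp [hD, derivedSeries_zero, ← MonoidHom.range_eq_map]
  have hDs : ∀ i, D (i + 1) = ⁅D i, D i⁆ := fun i => by
    simp [hD, derivedSeries_succ, map_commutator]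
  have hex : ∃ i, D i ≤ N := by
    obtain ⟨n, hn⟩ := Group.IsSolvable.solvable (G := ↥K)
    exact ⟨n, by simp [hD, hn]⟩
  have hDn : ∀ i, D i ≤ K ∧ A ⊔ K ≤ normalizer (D i : Set G) := by
    intro i
    induction i with
    | zero => rw [hD0]; exact ⟨le_rfl, sup_le hAK le_normalizer⟩
    | succ i ih =>
      rw [hDs]
      exact ⟨(commutator_mono ih.1 ih.1).trans (commutator_le_self K),
        le_normalizer_commutator_self ih.2⟩
  classical
  set m := Nat.find hex
  have hm : D m ≤ N := Nat.find_spec hex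
  obtain ⟨i, hi⟩ : ∃ i, m = i + 1 := by
    rcases Nat.eq_zero_or_pos m with h | h
    · exact absurd (le_antisymm hN (by rw [h, hD0] at hm; exact hm)) hne
    · exact ⟨m - 1, by omega⟩
  have hnot : ¬ D i ≤ N := Nat.find_min hex (by omega)
  refine ⟨N ⊔ D i, lt_of_le_of_ne le_sup_left (fun h => hnot (h ▸ le_sup_right)),
    sup_le hN (hDn i).1, ?_, ?_, ?_⟩
  · exact (le_inf hAN (le_sup_left.trans (hDn i).2)).trans (normalizer_inf_normalizer_le_normalizer_sup _ _)
  · exact (le_inf hKN (le_sup_right.trans (hDn i).2)).trans (normalizer_inf_normalizer_le_normalizer_sup _ _)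
  · have hVK : N ⊔ D i ≤ K := sup_le hN (hDn i).1
    have hnorm : N ⊔ D i ≤ normalizer (N : Set G) := hVK.trans hKN
    have : (N.subgroupOf (N ⊔ D i)).Normal := normal_subgroupOf_of_le_normalizer hnorm
    have hsplit : ∀ v : ↥(N ⊔ D i), ∃ d : ↥(N ⊔ D i), (d : G) ∈ D i ∧
        QuotientGroup.mk' (N.subgroupOf (N ⊔ D i)) v =
          QuotientGroup.mk' (N.subgroupOf (N ⊔ D i)) d := by
      intro v
      have hv : (v : G) ∈ (D i ⊔ N : Subgroup G) := by rw [sup_comm]; exact v.2
      rw [← SetLike.mem_coe, coe_mul_of_left_le_normalizer_right _ _ ((hDn i).1.trans hKN)] at hv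
      obtain ⟨d, hd, n, hn, e⟩ := hv
      refine ⟨⟨d, mem_sup_right hd⟩, hd, ?_⟩
      rw [QuotientGroup.mk'_eq_mk']
      exact ⟨⟨n⁻¹, mem_sup_left (inv_mem hn)⟩, mem_subgroupOf.mpr (inv_mem hn), Subtype.ext (by
        change (v : G) * n⁻¹ = d
        rw [← e, mul_inv_cancel_right])⟩
    rw [commutator_le]
    intro a ha b hb
    obtain ⟨d, hd, ed⟩ := hsplit ⟨a, ha⟩
    obtain ⟨d', hd', ed'⟩ := hsplit ⟨b, hb⟩
    have h1 : QuotientGroup.mk' (N.subgroupOf (N ⊔ D i)) ⁅(⟨a, ha⟩ : ↥(N ⊔ D i)), ⟨b, hb⟩⁆ = 1 := by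
      rw [map_commutatorElement, ed, ed', ← map_commutatorElement]
      refine (QuotientGroup.eq_one_iff _).mpr (mem_subgroupOf.mpr (hm ?_))
      rw [hi, hDs]
      exact commutator_mem_commutator hd hd'
    exact mem_subgroupOf.mp ((QuotientGroup.eq_one_iff _).mp h1)

variable [Finite G]

/-- In a solvable group `K` generated by invariant subgroups `X i ≤ C(E i)`, any two of which lie
in an invariant subgroup generated by its parts in the `X l`, the centralisers of the `E i` are
the `X i` as soon as the `X i` meet `C(E j)` inside `X j`. -/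
theorem centralizer_eq_of_compatible {ι : Type*} (A K : Subgroup G) (E X : ι → Subgroup G)
    [Group.IsSolvable K] (hAK : A ≤ normalizer (K : Set G))
    (hcop : (Nat.card A).Coprime (Nat.card K)) (hE : ∀ i, E i ≤ A)
    (hXK : ∀ i, X i ≤ K) (hXC : ∀ i, X i ≤ centralizer (E i : Set G))
    (hXA : ∀ i, A ≤ normalizer (X i : Set G))
    (hcap : ∀ i j, X i ⊓ centralizer (E j : Set G) ≤ X j)
    (hsupK : K ≤ ⨆ i, X i)
    (hgen : ∀ Z H : Subgroup G, Z ≤ K → A ≤ normalizer (Z : Set G) →
      (∀ i, Z ⊓ centralizer (E i : Set G) ≤ H) → Z ≤ H)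
    (hpair : ∀ i j, ∃ Y : Subgroup G, X i ≤ Y ∧ X j ≤ Y ∧ Y ≤ K ∧ A ≤ normalizer (Y : Set G) ∧
      ∀ Z H : Subgroup G, Z ≤ Y → A ≤ normalizer (Z : Set G) →
        (∀ l, Z ⊓ X l ≤ H) → Z ≤ H) :
    ∀ i, K ⊓ centralizer (E i : Set G) ≤ X i := by
  suffices key : ∀ N : Subgroup G, N ≤ K → A ≤ normalizer (N : Set G) →
      K ≤ normalizer (N : Set G) → ∀ i, K ⊓ centralizer (E i : Set G) ≤ X i ⊔ N by
    intro i
    simpa using key ⊥ bot_le (fun a _ => mem_normalizer_iff.mpr fun x => by simp) (fun a _ => mem_normalizer_iff.mpr fun x => by simp) i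
  intro N
  induction N using WellFoundedGT.induction with
  | _ N ih =>
  intro hN hAN hKN i
  by_cases hne : N = K
  · exact inf_le_left.trans (hne ▸ le_sup_right)
  -- the subgroup generated by `N` and the parts in the `X i` of a normal subgroup
  have hU : ∀ W : Subgroup G, W ≤ K → A ≤ normalizer (W : Set G) → K ≤ normalizer (W : Set G) →
      N ≤ W → (A ≤ normalizer ((N ⊔ ⨆ i, W ⊓ X i : Subgroup G) : Set G) ∧
        K ≤ normalizer ((N ⊔ ⨆ i, W ⊓ X i : Subgroup G) : Set G)) := by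
    intro W hW hAW hKW hNW
    set S := ⨆ i, W ⊓ X i with hS
    constructor
    · refine (le_inf hAN ?_).trans (normalizer_inf_normalizer_le_normalizer_sup _ _)
      refine le_normalizer_iff.mpr fun a ha x hx => ?_
      rw [hS] at hx ⊢
      refine iSup_induction _ (C := fun x => a * x * a⁻¹ ∈ ⨆ i, W ⊓ X i) hx ?_ ?_ ?_
      · intro l y hy
        exact mem_iSup_of_mem l ⟨le_normalizer_iff.mp hAW a ha y hy.1,
          le_normalizer_iff.mp (hXA l) a ha y hy.2⟩
      · simp
      · intro y z hy hz; rw [← conj_mul]; exact mul_mem hy hz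
    · refine hsupK.trans (iSup_le fun j => (le_inf ((hXK j).trans hKN) ?_).trans
        (normalizer_inf_normalizer_le_normalizer_sup _ _))
      refine le_normalizer_iff.mpr fun a ha x hx => ?_
      rw [hS] at hx ⊢
      refine iSup_induction _ (C := fun x => a * x * a⁻¹ ∈ ⨆ i, W ⊓ X i) hx ?_ ?_ ?_
      · intro l y hy
        obtain ⟨Y, hjY, hlY, hYK, hAY, hY⟩ := hpair j l
        refine hY (W ⊓ Y) (⨆ i, W ⊓ X i) inf_le_right
          ((le_inf hAW hAY).trans inf_normalizer_le_normalizer_inf) (fun m z hz => ?_) (mem_inf.mpr ⟨?_, ?_⟩)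
        · exact mem_iSup_of_mem m ⟨hz.1.1, hz.2⟩
        · exact le_normalizer_iff.mp hKW a (hXK j ha) y hy.1
        · exact mul_mem (mul_mem (hjY ha) (hlY hy.2)) (inv_mem (hjY ha))
      · simp
      · intro y z hy hz; rw [← conj_mul]; exact mul_mem hy hz
  -- descent from an abelian section with enough fixed points
  have descend : ∀ W : Subgroup G, W ≤ K → A ≤ normalizer (W : Set G) → K ≤ normalizer (W : Set G) →
      N ≤ W → ⁅N ⊔ ⨆ i, W ⊓ X i, N ⊔ ⨆ i, W ⊓ X i⁆ ≤ N → ¬ (∀ l, W ⊓ X l ≤ N) →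
      K ⊓ centralizer (E i : Set G) ≤ X i ⊔ N := by
    intro W hW hAW hKW hNW hab hbig
    obtain ⟨hAU, hKU⟩ := hU W hW hAW hKW hNW
    set U := N ⊔ ⨆ i, W ⊓ X i with hUd
    have hUW : U ≤ W := sup_le hNW (iSup_le fun _ => inf_le_left)
    have hlt : N < U := lt_of_le_of_ne le_sup_left fun h => hbig fun l => by
      rw [h]; exact le_sup_of_le_right (le_iSup (fun i => W ⊓ X i) l)
    obtain ⟨R, ⟨hNR, hRU, hAR, hR⟩, hmax⟩ := ({R : Subgroup G | N ≤ R ∧ R ≤ U ∧
        A ≤ normalizer (R : Set G) ∧ R ⊓ centralizer (E i : Set G) ≤ X i ⊔ N} :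
        Set (Subgroup G)).toFinite.exists_maximal
      ⟨N, le_rfl, le_sup_left, hAN, inf_le_left.trans le_sup_right⟩
    have hall : ∀ l, W ⊓ X l ≤ R := by
      intro l
      set T := W ⊓ X l with hT
      have hTU : T ≤ U := le_sup_of_le_right (le_iSup (fun i => W ⊓ X i) l)
      have hTR : T ≤ normalizer (R : Set G) := le_normalizer_iff.mpr fun t ht r hr => by
        have h : ⁅t, r⁆ ∈ R := hNR (hab (commutator_mem_commutator (hTU ht) (hRU hr)))
        simpa [commutatorElement_def] using mul_mem h hr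
      have hAT : A ≤ normalizer (T : Set G) :=
        (le_inf hAW (hXA l)).trans inf_normalizer_le_normalizer_inf
      refine le_sup_left.trans (hmax (show T ⊔ R ∈ {R : Subgroup G | N ≤ R ∧ R ≤ U ∧
        A ≤ normalizer (R : Set G) ∧ R ⊓ centralizer (E i : Set G) ≤ X i ⊔ N} from
          ⟨hNR.trans le_sup_right, sup_le hTU hRU,
            (le_inf hAT hAR).trans (normalizer_inf_normalizer_le_normalizer_sup _ _), ?_⟩) le_sup_right)
      intro u hu
      have hu1 : u ∈ (T ⊔ R : Subgroup G) := hu.1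
      rw [← SetLike.mem_coe, coe_mul_of_left_le_normalizer_right _ _ hTR] at hu1
      obtain ⟨t, ht, r, hr, rfl⟩ := hu1
      obtain ⟨n, hn, hnc⟩ := H20.exists_mul_mem_centralizer (A := E i) (N := T ⊓ R) (k := t)
        ((hE i).trans ((le_inf hAT hAR).trans inf_normalizer_le_normalizer_inf))
        (Nat.Coprime.coprime_dvd_left (card_dvd_of_le (hE i)) (Nat.Coprime.coprime_dvd_right
          (card_dvd_of_le (inf_le_left.trans (inf_le_right.trans (hXK l)))) hcop))
        (Or.inr (Group.isSolvable_of_isSolvable_injective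
          (inclusion_injective (inf_le_left.trans (inf_le_right.trans (hXK l))))))
        (fun e he => by
          refine mem_inf.mpr ⟨mul_mem (inv_mem ht) (le_normalizer_iff.mp ((hE i).trans hAT) e he t ht), ?_⟩
          have h : e * (t * r) * e⁻¹ = t * r := by
            have hc : e * (t * r) = t * r * e := mem_centralizer_iff.mp hu.2 e he
            rw [hc, mul_inv_cancel_right]
          have e1 : t⁻¹ * (e * t * e⁻¹) = r * (e * r * e⁻¹)⁻¹ := by
            have h' : (e * t * e⁻¹) * (e * r * e⁻¹) = t * r := by rw [conj_mul, h]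
            rw [inv_mul_eq_iff_eq_mul, ← mul_assoc, eq_mul_inv_iff_mul_eq, h']
          rw [e1]
          exact mul_mem hr (inv_mem (le_normalizer_iff.mp ((hE i).trans hAR) e he r hr)))
      have h1 : t * n ∈ X i := hcap l i ⟨mul_mem ht.2 hn.1.2, hnc⟩
      have h2 : n⁻¹ * r ∈ X i ⊔ N := hR (mem_inf.mpr ⟨mul_mem (inv_mem hn.2) hr, by
        have := mul_mem (inv_mem hnc) hu.2
        simpa [mul_assoc] using this⟩)
      simpa [mul_assoc] using mul_mem (mem_sup_left h1) h2
    have hUR : U ≤ R := sup_le hNR (iSup_le hall)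
    have hfix : U ⊓ centralizer (E i : Set G) ≤ X i ⊔ N := (inf_le_inf_right _ hUR).trans hR
    intro c hc
    have h := ih U hlt (hUW.trans hW) hAU hKU i hc
    rw [← SetLike.mem_coe, coe_mul_of_left_le_normalizer_right _ _ ((hXK i).trans hKU)] at h
    obtain ⟨x, hx, u, hu, e⟩ := h
    have huc : u ∈ centralizer (E i : Set G) := by
      have h' : u = x⁻¹ * c := by rw [← e, inv_mul_cancel_left]
      rw [h']; exact mul_mem (inv_mem (hXC i hx)) hc.2
    rw [← e]
    exact mul_mem (mem_sup_left hx) (hfix ⟨hu, huc⟩)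
  obtain ⟨V, hNV, hVK, hAV, hKV, hVab⟩ := exists_abelian_step hN hAK hAN hKN hne
  by_cases hbig : ¬ ∀ l, V ⊓ X l ≤ N
  · refine descend V hVK hAV hKV hNV.le ((commutator_mono ?_ ?_).trans hVab) hbig <;>
      exact sup_le hNV.le (iSup_le fun _ => inf_le_left)
  push Not at hbig
  have hVne : V ≠ K := fun h => hne (le_antisymm hN (hsupK.trans (iSup_le fun l x hx =>
    hbig l ⟨h.symm ▸ hXK l hx, hx⟩)))
  obtain ⟨W, hVW, hWK, hAW, hKW, hWab⟩ := exists_abelian_step hVK hAK hAV hKV hVne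
  refine descend W hWK hAW hKW (hNV.le.trans hVW.le) ?_ ?_
  · have hgens : ∀ l m, ∀ x ∈ W ⊓ X l, ∀ y ∈ W ⊓ X m, ⁅x, y⁆ ∈ N := by
      intro l m x hx y hy
      obtain ⟨Y, hlY, hmY, hYK, hAY, hY⟩ := hpair l m
      refine hY (V ⊓ Y) N inf_le_right ((le_inf hAV hAY).trans inf_normalizer_le_normalizer_inf)
        (fun k z hz => hbig k ⟨hz.1.1, hz.2⟩) ⟨hWab (commutator_mem_commutator hx.1 hy.1), ?_⟩
      show _ ∈ Y
      rw [commutatorElement_def]
      exact mul_mem (mul_mem (mul_mem (hlY hx.2) (hmY hy.2)) (inv_mem (hlY hx.2)))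
        (inv_mem (hmY hy.2))
    set U := N ⊔ ⨆ i, W ⊓ X i with hUd
    have hUK : U ≤ K := sup_le hN (iSup_le fun l => inf_le_left.trans hWK)
    have : (N.subgroupOf U).Normal := normal_subgroupOf_of_le_normalizer (hUK.trans hKN)
    set f := QuotientGroup.mk' (N.subgroupOf U) with hf
    have hcommgen : ∀ l m, ∀ x : ↥U, (x : G) ∈ W ⊓ X l → ∀ y : ↥U, (y : G) ∈ W ⊓ X m →
        Commute (f x) (f y) := fun l m x hx y hy => by
      rw [← commutatorElement_eq_one_iff_commute, ← map_commutatorElement]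
      exact (QuotientGroup.eq_one_iff _).mpr (mem_subgroupOf.mpr (hgens l m _ hx _ hy))
    have hgenU : ∀ (q : ↥U → Prop), (∀ x : ↥U, (x : G) ∈ N → q x) →
        (∀ l, ∀ x : ↥U, (x : G) ∈ W ⊓ X l → q x) → (∀ x y, q x → q y → q (x * y)) →
        (∀ x, q x → q x⁻¹) → ∀ x, q x := by
      intro q hqN hqX hqm hqi x
      have key : ∀ g : G, g ∈ U → ∀ hg : g ∈ U, q ⟨g, hg⟩ := by
        let Q : Subgroup G :=
          { carrier := {g | g ∈ U ∧ ∀ hg : g ∈ U, q ⟨g, hg⟩}
            mul_mem' := fun {a b} ha hb => ⟨mul_mem ha.1 hb.1, fun _ =>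
              hqm ⟨a, ha.1⟩ ⟨b, hb.1⟩ (ha.2 _) (hb.2 _)⟩
            one_mem' := ⟨one_mem _, fun _ => hqN _ (one_mem N)⟩
            inv_mem' := fun {a} ha => ⟨inv_mem ha.1, fun _ => hqi ⟨a, ha.1⟩ (ha.2 _)⟩ }
        have hle : U ≤ Q := sup_le (fun g hg => ⟨mem_sup_left hg, fun _ => hqN _ hg⟩)
          (iSup_le fun l g hg => ⟨mem_sup_right (mem_iSup_of_mem l hg), fun _ => hqX l _ hg⟩)
        exact fun g hg => (hle hg).2
      exact key _ x.2 x.2
    have hcomm : ∀ x y : ↥U, Commute (f x) (f y) := by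
      refine hgenU (fun x => ∀ y, Commute (f x) (f y)) (fun x hx y => ?_) (fun l x hx => ?_)
        (fun x y hx hy z => by rw [map_mul]; exact (hx z).mul_left (hy z))
        (fun x hx z => by rw [map_inv]; exact (hx z).inv_left)
      · rw [show f x = 1 from (QuotientGroup.eq_one_iff x).mpr (mem_subgroupOf.mpr hx)]; exact Commute.one_left _
      · refine hgenU (fun y => Commute (f x) (f y)) (fun y hy => ?_) (fun m y hy => hcommgen l m x hx y hy)
          (fun y z hy hz => by rw [map_mul]; exact hy.mul_right hz)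
          (fun y hy => by rw [map_inv]; exact hy.inv_right)
        rw [show f y = 1 from (QuotientGroup.eq_one_iff y).mpr (mem_subgroupOf.mpr hy)]; exact Commute.one_right _
    rw [commutator_le]
    intro x hx y hy
    have h : f ⁅(⟨x, hx⟩ : ↥U), ⟨y, hy⟩⁆ = 1 := by
      rw [map_commutatorElement]; exact commutatorElement_eq_one_iff_commute.mpr (hcomm _ _)
    exact mem_subgroupOf.mp ((QuotientGroup.eq_one_iff _).mp h)
  · intro hsmall
    refine hVW.not_ge (hgen W V hWK hAW fun l w hw => ?_)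
    have h := ih V hNV hVK hAV hKV l ⟨hWK hw.1, hw.2⟩
    rw [← SetLike.mem_coe, coe_mul_of_left_le_normalizer_right _ _ ((hXK l).trans hKV)] at h
    obtain ⟨x, hx, v, hv, e⟩ := h
    have hxW : x ∈ W := by
      have h' : x = w * v⁻¹ := by rw [← e, mul_inv_cancel_right]
      rw [h']; exact mul_mem hw.1 (inv_mem (hVW.le hv))
    rw [← e]
    exact mul_mem (hNV.le (hsmall l ⟨hxW, hx⟩)) hv

end Cfsg.Agent.H52
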